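import Cfsg.Agent.Asch.OType

/-!
Self-adjoint fields over which the space has dimension two.
-/

set_option autoImplicit false
set_option linter.unusedSectionVars false
set_option maxHeartbeats 400000

namespace Cfsg.Agent.Asch

open scoped MatrixGroups Matrix
open Form Module

variable {ι : Type} [Fintype ι] [DecidableEq ι] [Nonempty ι] {F : Type*} [Field F] [Fintype F]
variable {S : PQ (FP.orth F) (ι → F)} {H : Subgroup (GL ι F)} {r : ℕ} {K : Subalgebra F (Matrix ι ι F)}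

theorem exists_field_of_dvd (C : Subalgebra F (Matrix ι ι F)) (hc : ∀ x ∈ C, ∀ y ∈ C, x * y = y * x)
    (hi : ∀ x ∈ C, x ≠ 0 → ∃ y ∈ C, x * y = 1) (hd : r ∣ finrank F C) :
    ∃ K : Subalgebra F (Matrix ι ι F), Geo.IsFieldSubalgebra r K ∧
      ∀ x, x ∈ K ↔ x ∈ C ∧ x ^ (Fintype.card F ^ r) = x := by
  letI := fieldOf C hc hi
  have hmem : ∀ x, x ∈ (fixPow F C r).toSubalgebra.map C.val ↔ x ∈ C ∧ x ^ (Fintype.card F ^ r) = x := by
    intro x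
    constructor
    · rintro ⟨y, hy, rfl⟩
      exact ⟨y.2, congrArg Subtype.val ((mem_fixPow F C r y).1 hy)⟩
    · rintro ⟨h1, h2⟩
      exact ⟨⟨x, h1⟩, (mem_fixPow F C r _).2 (Subtype.ext h2), rfl⟩
  refine ⟨(fixPow F C r).toSubalgebra.map C.val, ⟨?_, ?_, ?_⟩, hmem⟩
  · intro x hx y hy; exact hc x ((hmem x).1 hx).1 y ((hmem y).1 hy).1
  · rintro _ ⟨y, hy, rfl⟩ h0
    have h0' : y ≠ 0 := by rintro rfl; exact h0 rfl
    exact ⟨_, ⟨y⁻¹, (fixPow F C r).inv_mem hy, rfl⟩, congrArg Subtype.val (mul_inv_cancel₀ h0')⟩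
  · refine Eq.trans ?_ (finrank_fixPow F C hd)
    exact (Subalgebra.equivMapOfInjective (fixPow F C r).toSubalgebra C.val
      Subtype.val_injective).toLinearEquiv.finrank_eq.symm

theorem two_dvd_of_adj (hS : S.Nondeg) (hK : Geo.IsFieldSubalgebra r K) (ha : AdjC S (K : Set (Matrix ι ι F)))
    (h : ∃ k ∈ K, adj S k ≠ k) : 2 ∣ r := by
  letI := fieldOf K hK.comm hK.inv
  let α : Gal(K/F) := AlgEquiv.ofRingEquiv (f := adjEquiv hS hK.comm ha) fun c => Subtype.ext (by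
    change adj S (algebraMap F (Matrix ι ι F) c) = algebraMap F (Matrix ι ι F) c
    rw [Algebra.algebraMap_eq_smul_one, adj_smul hS, adj_one hS]; rfl)
  have hα1 : α ≠ 1 := fun h0 => by
    obtain ⟨k, hk, hk'⟩ := h
    exact hk' (congrArg Subtype.val (AlgEquiv.congr_fun h0 ⟨k, hk⟩))
  have hα2 : α ^ 2 = 1 := AlgEquiv.ext fun x => Subtype.ext (adj_adj hS x)
  have := Fact.mk Nat.prime_two
  have := orderOf_dvd_natCard α
  rwa [orderOf_eq_prime hα2 hα1, IsGalois.card_aut_eq_finrank, hK.finrank_eq] at this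

/-- the set `K + K x` -/
def Quad (K : Subalgebra F (Matrix ι ι F)) (x y : Matrix ι ι F) : Prop := ∃ a ∈ K, ∃ b ∈ K, y = a + b * x

theorem pair_or_unitary (hS : S.Nondeg) (hH : Irr H) (hI : H ≤ IsoB S) (hK : Geo.IsFieldSubalgebra r K) (ho : Odd r)
    (hN : Norms H K) (ha : ∀ k ∈ K, adj S k = k) {x : Matrix ι ι F} (h1 : ∀ k ∈ K, x * k = k * x)
    (h2 : Quad K x (x * x)) (h3 : Quad K x (adj S x)) (h4 : adj S x ≠ x) (h5 : ∀ g ∈ H, Quad K x (cj g x)) :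
    (∃ e, IdemFam H ![e, 1 - e] ∧ adj S e = 1 - e) ∨ ∃ L : Subalgebra F (Matrix ι ι F), Geo.IsFieldSubalgebra 2 L ∧
      Norms H L ∧ AdjC S (L : Set (Matrix ι ι F)) ∧ ∃ k ∈ L, adj S k ≠ k := by
  have hm : ∀ a ∈ K, ∀ b ∈ K, ∀ c ∈ K, ∀ d ∈ K, (a + b * x) * (c + d * x) =
      a * c + (a * d + b * c) * x + b * d * (x * x) := fun a ha b hb c hc d hd => by
    have e1 := h1 c hc
    have e2 := h1 d hd
    simp only [mul_add, add_mul, mul_assoc, e1]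
    rw [← mul_assoc x d, e2, mul_assoc d]; abel
  let C : Subalgebra F (Matrix ι ι F) :=
    { carrier := {y | Quad K x y}
      mul_mem' := by
        rintro _ _ ⟨a, ha, b, hb, rfl⟩ ⟨c, hc, d, hd, rfl⟩
        obtain ⟨u, hu, v, hv, h⟩ := h2
        refine ⟨a * c + b * d * u, by aesop, a * d + b * c + b * d * v, by aesop, ?_⟩
        rw [hm a ha b hb c hc d hd, h]; noncomm_ring
      add_mem' := by
        rintro _ _ ⟨a, ha, b, hb, rfl⟩ ⟨c, hc, d, hd, rfl⟩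
        exact ⟨a + c, add_mem ha hc, b + d, add_mem hb hd, by noncomm_ring⟩
      algebraMap_mem' := fun c => ⟨_, K.algebraMap_mem c, 0, zero_mem _, by simp⟩ }
  have hKC : ∀ k ∈ K, k ∈ C := fun k hk => ⟨k, hk, 0, zero_mem _, by simp⟩
  have hc : ∀ y ∈ C, ∀ z ∈ C, y * z = z * y := by
    rintro _ ⟨a, ha, b, hb, rfl⟩ _ ⟨c, hc, d, hd, rfl⟩
    rw [hm a ha b hb c hc d hd, hm c hc d hd a ha b hb, hK.comm a ha c hc, hK.comm a ha d hd, hK.comm b hb c hc,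
      hK.comm b hb d hd, add_comm (d * a)]
  have hn : Norms H C := by
    rintro g hg _ ⟨a, ha, b, hb, rfl⟩
    rw [map_add, map_mul]
    exact C.add_mem (hKC _ (hN g hg a ha)) (C.mul_mem (hKC _ (hN g hg b hb)) (h5 g hg))
  have hA : AdjC S (C : Set (Matrix ι ι F)) := by
    rintro _ ⟨a, ha', b, hb, rfl⟩
    rw [adj_add hS, adj_mul hS, ha a ha', ha b hb]
    exact C.add_mem (hKC _ ha') (C.mul_mem h3 (hKC _ hb))
  have hs : ∀ y ∈ C, adj S y = y → y ∈ K := by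
    rintro _ ⟨a, ha', b, hb, rfl⟩ h
    rw [adj_add hS, adj_mul hS, ha a ha', ha b hb, add_right_inj, ← h1 b hb] at h
    by_cases h0 : b = 0
    · simpa [h0] using ha'
    · obtain ⟨c, -, hc⟩ := hK.inv b hb h0
      exact absurd (by rw [← mul_one (adj S x), ← hc, ← mul_assoc, h, mul_assoc, hc, mul_one]) h4
  rcases (starOn_adj hS hI hn hc hA).trichotomy hH with ⟨t, e, he, he'⟩ | ⟨e, -, he, he'⟩ | hi
  · have : Nontrivial (Fin t) := Fin.nontrivial_iff_two_le.2 he.two_le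
    obtain ⟨i, j, hij⟩ := exists_pair_ne (Fin t)
    obtain ⟨y, -, hy⟩ := hK.inv _ (hs _ (he' j).1 (he' j).2) (he.ne_zero j)
    exact absurd (by rw [← mul_one (e i), ← hy, ← mul_assoc, he.orth i j hij, zero_mul]) (he.ne_zero i)
  · exact .inl ⟨e, he, he'⟩
  obtain ⟨L, hL, hL'⟩ := exists_field_of_dvd C hc hi
    (two_dvd_of_adj hS ⟨hc, hi, rfl⟩ hA ⟨x, ⟨0, zero_mem _, 1, one_mem _, by simp⟩, h4⟩)
  refine .inr ⟨L, hL, fun h hh x hx => (hL' _).2 ⟨hn h hh x ((hL' x).1 hx).1, ?_⟩,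
      fun x hx => (hL' _).2 ⟨hA x ((hL' x).1 hx).1, ?_⟩, ?_⟩
  · rw [← map_pow, ((hL' x).1 hx).2]
  · rw [← adj_pow hS, ((hL' x).1 hx).2]
  by_contra! h
  obtain ⟨v, hv⟩ := exists_ne (0 : ι → F)
  have := H2.Cases.dvd_finrank_of_field hL (W := LinearMap.range (actL K v)) (by
    rintro l hl _ ⟨k, rfl⟩
    exact ⟨⟨_, mul_mem (hs l ((hL' l).1 hl).1 (h l hl)) k.2⟩, (Matrix.mulVec_mulVec _ _ _).symm⟩)
  rw [LinearMap.finrank_range_of_inj (actL_injective hK hv), hK.finrank_eq] at this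
  exact Nat.not_even_iff_odd.2 ho (even_iff_two_dvd.2 this)

theorem exists_kbasis (hK : Geo.IsFieldSubalgebra r K) (hn : Fintype.card ι = 2 * r) {v : ι → F} (hv : v ≠ 0) :
    ∃ (w : ι → F) (Ψ : (K × K) ≃ₗ[F] (ι → F)), ∀ a b : K, Ψ (a, b) = a.val *ᵥ v + b.val *ᵥ w := by
  have hr := Fintype.card_pos (α := ι)
  obtain ⟨w, hw⟩ : ∃ w, w ∉ LinearMap.range (actL K v) := by
    by_contra! h
    have := LinearMap.finrank_range_of_inj (actL_injective hK hv)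
    rw [Submodule.eq_top_iff'.2 h, finrank_top, finrank_pi, hK.finrank_eq] at this
    omega
  refine ⟨w, LinearMap.linearEquivOfInjective ((actL K v).coprod (actL K w)) ?_
    (by simp [hK.finrank_eq, hn, two_mul]), fun _ _ => rfl⟩
  rw [injective_iff_map_eq_zero]
  rintro ⟨a, b⟩ h
  change a.val *ᵥ v + b.val *ᵥ w = 0 at h
  obtain rfl : b = 0 := by
    by_contra h0
    obtain ⟨c, hc, h1⟩ := hK.inv b b.2 fun h1 => h0 (Subtype.ext h1)
    refine hw ⟨⟨-(c * a), neg_mem (mul_mem hc a.2)⟩, ?_⟩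
    have := congrArg (c *ᵥ ·) h
    simp only [Matrix.mulVec_add, Matrix.mulVec_mulVec, hK.comm c hc b b.2, h1, Matrix.one_mulVec,
      Matrix.mulVec_zero] at this
    rw [actL_apply, Matrix.neg_mulVec, neg_eq_iff_add_eq_zero, this]
  rw [actL_injective hK hv (a₁ := a) (a₂ := 0) (by simpa [actL_apply] using h)]; rfl

theorem exists_sq_field (hK : Geo.IsFieldSubalgebra r K) (h2 : (2 : F) = 0) (k : K) : ∃ l : K, l * l = k := by
  letI := fieldOf K hK.comm hK.inv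
  exact H8.exists_sq_of_char_two (by rw [← map_ofNat (algebraMap F K) 2, h2, map_zero]) k

/-- the elements commuting with `K` whose form is alternating -/
structure Alt (S : PQ (FP.orth F) (ι → F)) (K : Subalgebra F (Matrix ι ι F)) (x : Matrix ι ι F) : Prop where
  comm : ∀ k ∈ K, x * k = k * x
  alt : ∀ u, S.B (x *ᵥ u) u = 0

theorem polarise {x : Matrix ι ι F} {c : F} (h : ∀ u, S.B (x *ᵥ u) u = c * S.Q u) (u v : ι → F) :
    S.B (x *ᵥ u) v = S.B u ((c • (1 : Matrix ι ι F) - x) *ᵥ v) := by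
  have := h (u + v)
  simp only [Matrix.mulVec_add, S.B_add_left, S.B_add_right, h, S.orth_Q_add] at this
  simp only [Matrix.sub_mulVec, Matrix.smul_mulVec, Matrix.one_mulVec, S.B_sub_right, S.B_smul_right, FP.orth_σ,
    S.orth_B_swap (x *ᵥ v) u]
  linear_combination this

theorem Alt.skew {x : Matrix ι ι F} (h : Alt S K x) (u v : ι → F) : S.B (x *ᵥ u) v = -S.B u (x *ᵥ v) := by
  simpa [Matrix.neg_mulVec] using polarise (c := 0) (by simpa using h.alt) u v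

theorem Alt.mul (hK : Geo.IsFieldSubalgebra r K) (ha : Geo.IsSelfAdjointFor S.B K) {x : Matrix ι ι F} (h : Alt S K x)
    {k : Matrix ι ι F} (hk : k ∈ K) : Alt S K (k * x) := by
  refine ⟨fun l hl => by rw [mul_assoc, h.comm l hl, ← mul_assoc, hK.comm k hk l hl, mul_assoc], fun u => ?_⟩
  by_cases h2 : (2 : F) = 0
  · obtain ⟨l, hl⟩ := exists_sq_field hK h2 ⟨k, hk⟩
    obtain rfl : l.val * l.val = k := congrArg Subtype.val hl
    rw [mul_assoc, ← Matrix.mulVec_mulVec, ha _ l.2, ← h.comm _ l.2, ← Matrix.mulVec_mulVec, h.alt]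
  · have := h.skew u (k *ᵥ u)
    rw [← ha k hk, Matrix.mulVec_mulVec, Matrix.mulVec_mulVec, h.comm k hk, S.orth_B_swap _ u] at this
    exact (mul_eq_zero.1 (by linear_combination this)).resolve_left h2

theorem Alt.eq_zero (hS : S.Nondeg) (hK : Geo.IsFieldSubalgebra r K) (hn : Fintype.card ι = 2 * r)
    (ha : Geo.IsSelfAdjointFor S.B K) {x : Matrix ι ι F} (h : Alt S K x) {v : ι → F} (hv : v ≠ 0) (h0 : x *ᵥ v = 0) :
    x = 0 := by
  obtain ⟨w, Ψ, hΨ⟩ := exists_kbasis hK hn hv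
  have h1 : ∀ k ∈ K, ∀ u, x *ᵥ (k *ᵥ u) = k *ᵥ (x *ᵥ u) := fun k hk u => by
    rw [Matrix.mulVec_mulVec, Matrix.mulVec_mulVec, h.comm k hk]
  have h2 : x *ᵥ w = 0 := hS _ fun y => by
    obtain ⟨⟨a, b⟩, rfl⟩ := Ψ.surjective y
    rw [hΨ, S.B_add_right, h.skew, h1 _ a.2, h0, ← ha _ b.2, Matrix.mulVec_mulVec, (h.mul hK ha b.2).alt]
    simp
  refine mat_ext fun y => ?_
  obtain ⟨⟨a, b⟩, rfl⟩ := Ψ.surjective y
  simp [hΨ, Matrix.mulVec_add, h1 _ a.2, h1 _ b.2, h0, h2, -Matrix.mulVec_mulVec]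

theorem Alt.exists_eq (hS : S.Nondeg) (hK : Geo.IsFieldSubalgebra r K) (hn : Fintype.card ι = 2 * r)
    (ha : Geo.IsSelfAdjointFor S.B K) {s x : Matrix ι ι F} (hs : Alt S K s) (h0 : s ≠ 0) (h : Alt S K x) :
    ∃ k ∈ K, x = k * s := by
  obtain ⟨v, hv⟩ := exists_ne (0 : ι → F)
  have h1 : ∀ y, Alt S K y → y *ᵥ v ∈ S.perp (LinearMap.range (actL K v)) := by
    rintro y hy _ ⟨k, rfl⟩
    rw [actL_apply, ← ha _ k.2, Matrix.mulVec_mulVec, (hy.mul hK ha k.2).alt]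
  have h2 : LinearMap.range (actL K (s *ᵥ v)) = S.perp (LinearMap.range (actL K v)) := by
    refine Submodule.eq_of_le_of_finrank_eq ?_ ?_
    · rintro _ ⟨k, rfl⟩
      rw [actL_apply, Matrix.mulVec_mulVec]; exact h1 _ (hs.mul hK ha k.2)
    · have := hS.finrank_perp (LinearMap.range (actL K v))
      rw [LinearMap.finrank_range_of_inj (actL_injective hK hv), finrank_pi, hK.finrank_eq] at this
      rw [LinearMap.finrank_range_of_inj (actL_injective hK fun h1 => h0 (hs.eq_zero hS hK hn ha hv h1)), hK.finrank_eq]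
      omega
  obtain ⟨k, hk⟩ := h2 ▸ h1 x h
  have h3 := hs.mul hK ha k.2
  refine ⟨k, k.2, sub_eq_zero.1 (Alt.eq_zero hS hK hn ha ⟨fun l hl => by rw [sub_mul, mul_sub, h.comm l hl, h3.comm l hl],
    fun u => by simp [Matrix.sub_mulVec, h.alt, h3.alt]⟩ hv ?_)⟩
  rw [Matrix.sub_mulVec, ← hk, actL_apply, Matrix.mulVec_mulVec, sub_self]

theorem exists_klin (hS : S.Nondeg) (hK : Geo.IsFieldSubalgebra r K) (ha : Geo.IsSelfAdjointFor S.B K) {v w : ι → F}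
    {Ψ : (K × K) ≃ₗ[F] (ι → F)} (hΨ : ∀ a b : K, Ψ (a, b) = a.val *ᵥ v + b.val *ᵥ w) (φ₁ φ₂ ψ₁ ψ₂ : K →ₗ[F] F) :
    ∃ x : Matrix ι ι F, (∀ k ∈ K, x * k = k * x) ∧ S.B w (x *ᵥ v) = ψ₁ 1 ∧ ∀ a b : K,
      S.B (x *ᵥ Ψ (a, b)) (Ψ (a, b)) = φ₁ (a * a) + ψ₁ (a * b) + ψ₂ (a * b) + φ₂ (b * b) := by
  obtain ⟨z₁, h1⟩ := hS.exists_lin (φ₁.coprod ψ₁ ∘ₗ Ψ.symm.toLinearMap)
  obtain ⟨z₂, h2⟩ := hS.exists_lin (ψ₂.coprod φ₂ ∘ₗ Ψ.symm.toLinearMap)
  replace h1 : ∀ a b : K, S.B (a.val *ᵥ v + b.val *ᵥ w) z₁ = φ₁ a + ψ₁ b := fun a b => by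
    simpa [← hΨ] using LinearMap.congr_fun h1 (Ψ (a, b))
  replace h2 : ∀ a b : K, S.B (a.val *ᵥ v + b.val *ᵥ w) z₂ = ψ₂ a + φ₂ b := fun a b => by
    simpa [← hΨ] using LinearMap.congr_fun h2 (Ψ (a, b))
  let x := LinearMap.toMatrix' ((actL K z₁).coprod (actL K z₂) ∘ₗ Ψ.symm.toLinearMap)
  have hx : ∀ a b : K, x *ᵥ Ψ (a, b) = a.val *ᵥ z₁ + b.val *ᵥ z₂ := fun a b => by simp [x, actL_apply]
  refine ⟨x, fun k hk => mat_ext fun y => ?_, ?_, fun a b => ?_⟩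
  · obtain ⟨⟨a, b⟩, rfl⟩ := Ψ.surjective y
    have := hx (⟨k, hk⟩ * a) (⟨k, hk⟩ * b)
    rw [← Matrix.mulVec_mulVec, ← Matrix.mulVec_mulVec, hx, hΨ]
    simpa [hΨ, Matrix.mulVec_add] using this
  · simpa [hΨ] using (congrArg (S.B w) (hx 1 0)).trans (by simpa using h1 0 1)
  · rw [hx, S.orth_B_swap, S.B_add_right, ← ha _ a.2, ← ha _ b.2, hΨ]
    simp only [Matrix.mulVec_add, Matrix.mulVec_mulVec]
    rw [hK.comm _ b.2 _ a.2]
    linear_combination h1 (a * a) (a * b) + h2 (a * b) (b * b)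

theorem exists_sqrt_lin (hK : Geo.IsFieldSubalgebra r K) (ha : Geo.IsSelfAdjointFor S.B K) (h2 : (2 : F) = 0)
    (h : ∀ k ∈ K, ∀ v, S.B (k *ᵥ v) v = 0) (v : ι → F) : ∃ φ : K →ₗ[F] F, ∀ a : K, φ (a * a) = S.Q (a.val *ᵥ v) := by
  choose s hs using exists_sq_field hK h2
  letI := fieldOf K hK.comm hK.inv
  have h3 : (2 : K) = 0 := by rw [← map_ofNat (algebraMap F K) 2, h2, map_zero]
  have h4 : ∀ a b : K, a * a = b → s b = a := fun a b h => sub_eq_zero.1 (mul_self_eq_zero.1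
    (by linear_combination hs b - h + (a * a - a * s b) * h3))
  refine ⟨⟨⟨fun m => S.Q ((s m).val *ᵥ v), fun a b => ?_⟩, fun c a => ?_⟩, fun a => by simp [h4 a _ rfl]⟩
  · rw [h4 (s a + s b) (a + b) (by linear_combination hs a + hs b + s a * s b * h3), Subalgebra.coe_add,
      Matrix.add_mulVec, S.orth_Q_add, ← ha _ (s b).2, Matrix.mulVec_mulVec, h _ (mul_mem (s b).2 (s a).2), add_zero]
  · obtain ⟨d, rfl⟩ := H8.exists_sq_of_char_two h2 c
    simp only [RingHom.id_apply, smul_eq_mul]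
    rw [h4 (d • s a) _ (by rw [smul_mul_smul_comm, hs]), Subalgebra.coe_smul, Matrix.smul_mulVec, S.orth_Q_smul, sq]

theorem cj_comm_of_norms (hN : Norms H K) {x : Matrix ι ι F} (h : ∀ k ∈ K, x * k = k * x) {g : GL ι F} (hg : g ∈ H) :
    ∀ k ∈ K, cj g x * k = k * cj g x := fun k hk => by
  have := congrArg (cj g) (h _ (hN _ (H.inv_mem hg) k hk))
  simpa only [map_mul, ← cj_mul, mul_inv_cancel, cj_one] using this

theorem B_cj (hI : H ≤ IsoB S) {g : GL ι F} (hg : g ∈ H) (x : Matrix ι ι F) (u : ι → F) :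
    S.B (cj g x *ᵥ u) u = S.B (x *ᵥ (g⁻¹.val *ᵥ u)) (g⁻¹.val *ᵥ u) := by
  rw [← mem_IsoB.1 (hI hg) (x *ᵥ _), ← cj_mulVec, mulVec_inv_mulVec]

theorem selfAdj_dim_two (hS : S.Nondeg) (hH : Irr H) (hI : H ≤ isometryGroup F S.Q) (hK : Geo.IsFieldSubalgebra r K)
    (ho : Odd r) (hn : Fintype.card ι = 2 * r) (hN : H ≤ Geo.subalgebraNormalizer K)
    (ha : Geo.IsSelfAdjointFor S.B K) (h2 : (2 : F) = 0 → ∀ k ∈ K, ∀ v, S.B (k *ᵥ v) v = 0) :
    (∃ e, IdemFam H ![e, 1 - e] ∧ adj S e = 1 - e) ∨ ∃ L : Subalgebra F (Matrix ι ι F), Geo.IsFieldSubalgebra 2 L ∧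
      Norms H L ∧ AdjC S (L : Set (Matrix ι ι F)) ∧ ∃ k ∈ L, adj S k ≠ k := by
  have hI' := hI.trans iso_le_IsoB
  replace hN : Norms H K := fun g hg k hk => (hN hg k).1 hk
  obtain ⟨v, hv⟩ := exists_ne (0 : ι → F)
  obtain ⟨w, Ψ, hΨ⟩ := exists_kbasis hK hn hv
  by_cases h0 : (2 : F) = 0
  · obtain ⟨φ₁, h3⟩ := exists_sqrt_lin hK ha h0 (h2 h0) v
    obtain ⟨φ₂, h4⟩ := exists_sqrt_lin hK ha h0 (h2 h0) w
    obtain ⟨x, h5, -, h6⟩ := exists_klin hS hK ha hΨ φ₁ φ₂ (S.lin v ∘ₗ actL K w) 0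
    replace h6 : ∀ u, S.B (x *ᵥ u) u = 1 * S.Q u := fun u => by
      obtain ⟨⟨a, b⟩, rfl⟩ := Ψ.surjective u
      rw [h6, h3, h4, hΨ, S.orth_Q_add, ha _ a.2, S.orth_B_swap]
      simp [actL_apply]; ring
    have h7 : adj S x = 1 - x := by simpa using adj_unique hS (polarise h6)
    have h8 : ∀ y, Alt S K y → y ∈ K := fun y hy => by
      obtain ⟨k, hk, rfl⟩ := Alt.exists_eq hS hK hn ha (s := 1) ⟨by simp, fun u => by simpa using orth_alt h0 u⟩ one_ne_zero hy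
      simpa using hk
    refine pair_or_unitary hS hH hI' hK ho hN ((selfAdj_iff hS).1 ha) h5 ⟨-(x * adj S x), neg_mem (h8 _ ⟨?_, ?_⟩), 1,
      one_mem _, by rw [h7]; noncomm_ring⟩ ⟨1, one_mem _, -1, neg_mem (one_mem _), by rw [h7]; noncomm_ring⟩ ?_
      fun g hg => ⟨cj g x - x, h8 _ ⟨?_, fun u => ?_⟩, 1, one_mem _, by simp⟩
    · intro k hk; rw [h7, mul_sub, sub_mul, mul_sub, mul_one, h5 k hk, mul_assoc, h5 k hk, ← mul_assoc, h5 k hk, mul_assoc]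
    · intro u; rw [← Matrix.mulVec_mulVec, B_adj hS, orth_alt h0]
    · rw [h7, Ne, sub_eq_iff_eq_add, ← two_smul F x, h0, zero_smul]; exact one_ne_zero
    · intro k hk; rw [sub_mul, mul_sub, h5 k hk, cj_comm_of_norms hN h5 hg k hk]
    · rw [Matrix.sub_mulVec, S.B_sub_left, B_cj hI' hg, h6, h6, mem_isometryGroup'.1 (hI (H.inv_mem hg)), sub_self]
  obtain ⟨y, hy⟩ := hS.exists_ne hv
  obtain ⟨x, h5, h7, h6⟩ := exists_klin hS hK ha hΨ 0 0 (S.lin v ∘ₗ actL K y) (-(S.lin v ∘ₗ actL K y))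
  have h8 : Alt S K x := ⟨h5, fun u => by
    obtain ⟨⟨a, b⟩, rfl⟩ := Ψ.surjective u
    simp [h6]⟩
  have h9 : x ≠ 0 := by rintro rfl; exact hy (by simpa [actL_apply] using h7.symm)
  have h10 : adj S x = -x := adj_unique hS fun u v => by simp [h8.skew, Matrix.neg_mulVec]
  refine pair_or_unitary hS hH hI' hK ho hN ((selfAdj_iff hS).1 ha) h5 ?_
    ⟨0, zero_mem _, -1, neg_mem (one_mem _), by simp [h10]⟩ ?_ fun g hg => ?_
  · obtain ⟨k, hk, h⟩ := Alt.exists_eq hS hK hn ha h8 h9 (x := x * (x * x))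
      ⟨fun k hk => by simp only [mul_assoc, h5 k hk]; simp only [← mul_assoc, h5 k hk], fun u => by
        rw [← Matrix.mulVec_mulVec, h8.skew, ← Matrix.mulVec_mulVec, h8.alt, neg_zero]⟩
    refine ⟨k, hk, 0, zero_mem _, mat_ext fun u => ?_⟩
    rw [zero_mul, add_zero, ← sub_eq_zero, ← Matrix.sub_mulVec]
    by_contra h1
    exact h9 (h8.eq_zero hS hK hn ha h1 (by rw [Matrix.mulVec_mulVec, mul_sub, h, h5 k hk]; simp))
  · rw [h10, Ne, neg_eq_iff_add_eq_zero, ← two_smul F x]; simp [h0, h9]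
  · obtain ⟨k, hk, h⟩ := Alt.exists_eq hS hK hn ha h8 h9 (x := cj g x)
      ⟨cj_comm_of_norms hN h5 hg, fun u => by rw [B_cj hI' hg, h8.alt]⟩
    exact ⟨0, zero_mem _, k, hk, by simp [h]⟩

end Cfsg.Agent.Asch
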