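import Cfsg.Agent.Asch.OTens

/-!
Maximal subgroups of the groups Ω: the list of types.
-/

set_option autoImplicit false
set_option linter.unusedSectionVars false
set_option maxHeartbeats 400000

namespace Cfsg.Agent.Asch

open scoped MatrixGroups Matrix
open Form Module H7 H9.FIdx H9.FCount H9.FClass H9.FOrd

variable {ι : Type} [Fintype ι] [DecidableEq ι] {F : Type*} [Field F] [Fintype F]

theorem decomp_type {S : PQ (FP.orth F) (ι → F)} (hS : S.Nondeg) {t k : ℕ} {D : Fin t → Submodule F (ι → F)}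
    (hD : Geo.IsOrthogonalMDecomposition S.Q k D) :
    (Even k → ((∀ i, Geo.IsPlusTypeOn S.Q (D i)) ∨ ∀ i, ¬ Geo.IsPlusTypeOn S.Q (D i)) ∧
      (Geo.IsPlusTypeOn S.Q ⊤ ↔ (∀ i, Geo.IsPlusTypeOn S.Q (D i)) ∨ Even t)) ∧
    (Odd k → Even t → (Geo.IsPlusTypeOn S.Q ⊤ ↔ Fintype.card F % 4 = 1 ∨ t % 4 = 0)) := by
  have h1 := hD.decomp
  rw [polar_eq_B] at h1
  have hn : ∀ i, S.NondegOn (D i) := fun i => (S.nondegOn_iff_geo _).2 (h1.nondegenerate i)
  have ho : ∀ i j, i ≠ j → D j ≤ S.perp (D i) := fun i j h v hv u hu => h1.orthogonal j i h.symm v hv u hu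
  have ht : Finset.univ.sup D = ⊤ := by rw [Finset.sup_univ_eq_iSup, h1.decomp.iSup_eq_top]
  simp only [← plus_geo (hn _), ← plus_geo (S.nondegOn_top.2 hS)]
  refine ⟨fun he => ?_, fun hk ⟨m, hm⟩ => ?_⟩
  · have h2 : ∀ i j, Plus S (D i) → Plus S (D j) := fun i j h => by
      rw [Plus, ← widx_restrict, ← (isometric_iff.1 (isometric_geo.2 (hD.isometric i j))).widx_eq, widx_restrict,
        h1.decomp.finrank_eq, ← h1.decomp.finrank_eq i]
      exact h
    refine ⟨or_iff_not_imp_right.2 fun h j => ?_, ?_⟩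
    · push Not at h
      exact h.elim fun i => h2 i j
    · simpa [ht] using (plus_sup_even hn ho (fun i => (h1.decomp.finrank_eq i).symm ▸ he) (p := ∀ i, Plus S (D i))
        (fun i => ⟨fun h j => h2 i j h, fun h => h i⟩) Finset.univ).2
  · have hk' : ∀ i, Odd (finrank F (D i)) := fun i => (h1.decomp.finrank_eq i).symm ▸ hk
    rw [← ht, (plus_sup_odd hn ho hk' (fun i j h => plus_sup_of_isometric hS (hn i) (hk' i) (ho i j h)
      (isometric_geo.2 (hD.isometric i j))) m Finset.univ (by simp [hm, two_mul])).2, Nat.even_iff]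
    omega

theorem half_decomp {P : FP F} {S : PQ P (ι → F)} (hS : S.Nondeg) {H : Subgroup (GL ι F)} (hI : H ≤ IsoB S)
    {W : Submodule F (ι → F)} (h0 : W ≠ ⊥) (h : ∀ h ∈ H, ∀ v ∈ W, (h : Matrix ι ι F) *ᵥ v ∈ W) (hW : S.NondegOn W)
    (h2 : finrank F W = finrank F (S.perp W)) :
    Geo.IsNondegenerateMDecomposition S.B (finrank F W) ![W, S.perp W] ∧
      H ≤ Geo.decompositionStabilizer ![W, S.perp W] := by
  have hp := hW.perp hS
  refine ⟨⟨⟨le_rfl, ?_, ?_, ?_, ?_⟩, ?_, ?_⟩, fun g hg => ⟨1, fun i => ?_⟩⟩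
  · rwa [pos_iff_ne_zero, Ne, Submodule.finrank_eq_zero]
  · intro i; fin_cases i; exacts [rfl, h2.symm]
  · rw [iSupIndep_pair (i := 0) (j := 1) (by decide) (by decide)]; exact hW.isCompl.disjoint
  · rw [← hW.isCompl.sup_eq_top]
    exact le_antisymm (iSup_le fun i => by fin_cases i; exacts [le_sup_left, le_sup_right])
      (sup_le (le_iSup_of_le 0 le_rfl) (le_iSup_of_le 1 le_rfl))
  · intro i; fin_cases i; exacts [(S.nondegOn_iff_geo W).1 hW, (S.nondegOn_iff_geo _).1 hp]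
  · intro i j hij; fin_cases i <;> fin_cases j
    · exact absurd rfl hij
    · exact fun u hu v hv => S.B_comm_zero (hv u hu)
    · exact fun u hu v hv => hu v hv
    · exact absurd rfl hij
  · fin_cases i; exacts [map_eq_of_invariant h hg, map_eq_of_invariant (perp_invariant hI h) hg]

/-- the types of maximal subgroups of Ω -/
inductive OMax (Q : (ι → F) → F) (H : Subgroup (GL ι F)) : Prop
  | c1s (W : Submodule F (ι → F)) : W ≠ ⊥ → Geo.IsTotallySingularQuad Q W →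
      (Geo.IsPlusTypeOn Q ⊤ → 2 * (finrank F W + 1) ≠ Fintype.card ι) →
      H = Geo.subspaceStabilizer W ⊓ Geo.omegaGL Q → OMax Q H
  | c1n (W : Submodule F (ι → F)) : W ≠ ⊥ → W ≠ ⊤ → Geo.IsNondegenerateOn (QuadraticMap.polar Q) W →
      0 < finrank F W → 2 * finrank F W ≤ Fintype.card ι → (Odd (finrank F W) → Odd (Fintype.card F)) →
      (finrank F W = 2 → Geo.IsPlusTypeOn Q W → 4 ≤ Fintype.card F) →
      (2 * finrank F W = Fintype.card ι → Even (finrank F W) ∧ ¬ Geo.IsPlusTypeOn Q ⊤) →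
      H = Geo.subspaceStabilizer W ⊓ Geo.omegaGL Q → OMax Q H
  | c1p (v : ι → F) : ¬ Odd (Fintype.card F) → Q v ≠ 0 → H = Geo.subspaceStabilizer (F ∙ v) ⊓ Geo.omegaGL Q → OMax Q H
  | c2n (t k : ℕ) (D : Fin t → Submodule F (ι → F)) : Geo.IsOrthogonalMDecomposition Q k D → 2 ≤ t →
      t * k = Fintype.card ι → (k = 1 → (Fintype.card F).Prime) → (Odd k → Odd (Fintype.card F)) →
      (k = 2 → Fintype.card F ≠ 3 ∧ ((∀ i, Geo.IsPlusTypeOn Q (D i)) → 7 ≤ Fintype.card F)) →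
      (k = 3 → Fintype.card F ≠ 3) → (k = 4 → (∀ i, Geo.IsPlusTypeOn Q (D i)) → 3 ≤ Fintype.card F) →
      (Even k → ((∀ i, Geo.IsPlusTypeOn Q (D i)) ∨ ∀ i, ¬ Geo.IsPlusTypeOn Q (D i)) ∧
        (Geo.IsPlusTypeOn Q ⊤ ↔ (∀ i, Geo.IsPlusTypeOn Q (D i)) ∨ Even t)) →
      (Odd k → Even t → (Geo.IsPlusTypeOn Q ⊤ ↔ Fintype.card F % 4 = 1 ∨ t % 4 = 0)) →
      H = Geo.decompositionStabilizer D ⊓ Geo.omegaGL Q → OMax Q H
  | c2x (k : ℕ) (D : Fin 2 → Submodule F (ι → F)) : Geo.IsNondegenerateMDecomposition (QuadraticMap.polar Q) k D →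
      2 * k = Fintype.card ι → Odd k → Odd (Fintype.card F) → ¬ Geo.AreIsometricFor Q (D 0) (D 1) →
      (Geo.IsPlusTypeOn Q ⊤ ↔ Fintype.card F % 4 = 3) → H = Geo.decompositionStabilizer D ⊓ Geo.omegaGL Q → OMax Q H
  | c2s (k : ℕ) (D : Fin 2 → Submodule F (ι → F)) : Geo.IsMDecomposition k D → 2 * k = Fintype.card ι → Even k →
      (∀ i, Geo.IsTotallySingularQuad Q (D i)) → Geo.IsPlusTypeOn Q ⊤ →
      H = Geo.decompositionStabilizer D ⊓ Geo.omegaGL Q → OMax Q H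
  | c3s (r : ℕ) (K : Subalgebra F (Matrix ι ι F)) : r.Prime → r ∣ Fintype.card ι → r ≠ Fintype.card ι →
      (Odd r → Fintype.card ι ≠ 2 * r) → (¬ Odd (Fintype.card F) → 2 * r ∣ Fintype.card ι) →
      Geo.IsFieldSubalgebra r K → Geo.IsSelfAdjointFor (QuadraticMap.polar Q) K →
      H = Geo.subalgebraNormalizer K ⊓ Geo.omegaGL Q → OMax Q H
  | c3u (K : Subalgebra F (Matrix ι ι F)) : Geo.IsFieldSubalgebra 2 K →
      Geo.IsAdjointClosedFor (QuadraticMap.polar Q) K → ¬ Geo.IsSelfAdjointFor (QuadraticMap.polar Q) K →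
      (∀ k ∈ K, ∃ c : F, ∀ v, Q (k *ᵥ v) = c * Q v) → (Geo.IsPlusTypeOn Q ⊤ ↔ Fintype.card ι % 4 = 0) →
      H = Geo.subalgebraNormalizer K ⊓ Geo.omegaGL Q → OMax Q H
  | c4o (n₁ n₂ : ℕ) (e : ι ≃ Fin n₁ × Fin n₂) (P : GL ι F) (f₁ : (Fin n₁ → F) → (Fin n₁ → F) → F)
      (f₂ : (Fin n₂ → F) → (Fin n₂ → F) → F) : n₁ * n₂ = Fintype.card ι → Odd (Fintype.card F) → 3 ≤ n₁ → n₁ ≤ n₂ →
      (n₁ = n₂ → Even n₁) → ¬ (Fintype.card F = 3 ∧ n₁ = 3) →
      (n₁ = 3 → n₂ = 4 → ¬ Geo.IsPlusTypeOn (fun v => f₂ v v) ⊤ ∧ ¬ Geo.IsPlusTypeOn Q ⊤) →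
      Geo.IsSymmetricForm f₁ → Geo.IsSymmetricForm f₂ →
      Geo.IsTensorFormStructure id (QuadraticMap.polar Q) f₁ f₂ e P →
      H = Geo.tensorProductSubgroup n₁ n₂ e P ⊓ Geo.omegaGL Q → OMax Q H
  | c4s (n₁ n₂ : ℕ) (e : ι ≃ Fin n₁ × Fin n₂) (P : GL ι F) (f₁ : (Fin n₁ → F) → (Fin n₁ → F) → F)
      (f₂ : (Fin n₂ → F) → (Fin n₂ → F) → F) : n₁ * n₂ = Fintype.card ι → 2 ≤ n₁ → n₁ ≤ n₂ → Even n₁ → Even n₂ →
      ¬ (Fintype.card F = 2 ∧ n₁ = 2) → Geo.IsSymplecticForm f₁ → Geo.IsSymplecticForm f₂ →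
      Geo.IsTensorFormStructure id (QuadraticMap.polar Q) f₁ f₂ e P →
      (∀ (x₁ : Fin n₁ → F) (x₂ : Fin n₂ → F), Q (P.val *ᵥ ((fun a : Fin n₁ × Fin n₂ => x₁ a.1 * x₂ a.2) ∘ e)) = 0) →
      Geo.IsPlusTypeOn Q ⊤ → H = Geo.tensorProductSubgroup n₁ n₂ e P ⊓ Geo.omegaGL Q → OMax Q H
  | c5 (F₀ : Subfield F) (r : ℕ) (P : GL ι F) (ζ : F) : r.Prime → Fintype.card F = Nat.card F₀ ^ r → ζ ≠ 0 →
      (Even (Fintype.card ι) → ¬ Geo.IsPlusTypeOn Q ⊤ → Odd r) →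
      Geo.IsQuadFormRationalStructure (fun v => ζ * Q v) F₀ P → H = Geo.subfieldSubgroup F₀ P ⊓ Geo.omegaGL Q →
      OMax Q H
  | c67 (k t : ℕ) : 2 ≤ k → 2 ≤ t → k ^ t = Fintype.card ι → Geo.IsPlusTypeOn Q ⊤ → OMax Q H
  | c7 (k t : ℕ) : 3 ≤ k → 2 ≤ t → k ^ t = Fintype.card ι → OMax Q H
  | res : Geo.InOrthogonalResidualClass H → OMax Q H

variable {Q : (ι → F) → F} {H : Subgroup (GL ι F)}

theorem oMax (hQ : Geo.IsNondegenerateQuadraticForm Q) (hn : 8 ≤ Fintype.card ι)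
    (hH : Geo.IsMaximalIn (Geo.omegaGL Q) H) : OMax Q H := by
  have : Nonempty ι := Fintype.card_pos_iff.1 (by omega)
  have hS := quadPQ_nondeg hQ
  have hI := max_le_iso hQ hH
  have hI' := hI.trans iso_le_IsoB
  have k2 : ∀ {t k : ℕ} {D : Fin t → Submodule F (ι → F)}, Geo.IsOrthogonalMDecomposition Q k D →
      (k = 1 → (Fintype.card F).Prime) → H ≤ Geo.decompositionStabilizer D → OMax Q H := fun {t k D} h1 h2 h => by
    have h3 := h1.decomp.decomp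
    have h4 := eq_inf_of_max hH h (H8.omega_not_le_decompositionStabilizer hQ (by omega) h3)
    obtain ⟨h5, h6, h7⟩ := decomp_excl hQ (by omega) (h4 ▸ hH) h1
    obtain ⟨h8, h9⟩ := decomp_type (S := quadPQ hQ) hS h1
    exact .c2n t k D h1 h3.two_le (mul_eq_card_of_decomp h3) h2 (fun ho => odd_of_nondegOn hQ
      (h1.decomp.nondegenerate ⟨0, by have := h3.two_le; omega⟩) ((h3.finrank_eq _).symm ▸ ho)) h5 h6 h7 h8 h9 h4
  have k2s : ∀ {k : ℕ} {D : Fin 2 → Submodule F (ι → F)}, Irr H → Geo.IsMDecomposition k D →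
      (∀ i, Geo.IsTotallySingularQuad Q (D i)) → H ≤ Geo.decompositionStabilizer D → OMax Q H :=
    fun {k D} h0 h1 h2 h => .c2s k D h1 (mul_eq_card_of_decomp h1) (pair_excl hQ (by omega) h0 hH.1.le h h1 h2) h2
      (plus_of_pair h1 h2) (eq_inf_of_max hH h (H8.omega_not_le_decompositionStabilizer hQ (by omega) h1))
  have k3 : ∀ {K : Subalgebra F (Matrix ι ι F)}, Geo.IsFieldSubalgebra 2 K →
      Geo.IsAdjointClosedFor (QuadraticMap.polar Q) K → ¬ Geo.IsSelfAdjointFor (QuadraticMap.polar Q) K →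
      (∀ k ∈ K, ∃ c : F, ∀ v, Q (k *ᵥ v) = c * Q v) → H ≤ Geo.subalgebraNormalizer K → OMax Q H :=
    fun {K} h1 h2 h3 h4 h => .c3u K h1 h2 h3 h4 (plus_top_unitary hS h1 h2 h4)
      (eq_inf_of_max hH h (H8.omega_not_le_subalgebraNormalizer hQ (by omega) h1 (by omega)))
  rcases orthCase hS (by omega) hI with ⟨W, h1, h2, h⟩ | ⟨W, h1, h2, h3, h4, h⟩ | ⟨v, h1, h2, h⟩ |
    ⟨t, k, D, -, h1, h2, h⟩ | ⟨k, D, h0, h1, h2, h⟩ | ⟨r, K, h0, h1, h2, h3, h4, h5, h⟩ | ⟨K, -, h1, h2, h3, h4, h⟩ |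
    ⟨n₁, n₂, e, P, f₁, f₂, h0, hc, h1, h2, h3, h4, h5, h6, h7, h8, h⟩ |
    ⟨n₁, n₂, e, P, f₁, f₂, -, h1, h2, h3, h4, h5, h6, h7, h8, h⟩ | ⟨F₀, r, P, ζ, -, h1, h2, h3, h4, h⟩ |
    ⟨k, t, h1, h2, -, h3, h4⟩ | ⟨k, t, e, P, f₁, -, -, h1, h2, -⟩ | h
  · have h3 := eq_inf_of_max hH h (H8.omega_not_le_subspaceStabilizer hQ (by omega) h1 (ts_ne_top hQ h2))
    exact .c1s W h1 h2 (submax_excl hQ (by omega) (h3 ▸ hH) h2) h3
  · have h5 := eq_inf_of_max hH h (H8.omega_not_le_subspaceStabilizer hQ (by omega) h1 h2)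
    by_cases h6 : 2 * finrank F W = Fintype.card ι → Even (finrank F W) ∧ ¬ Geo.IsPlusTypeOn Q ⊤
    · exact .c1n W h1 h2 h3 (Nat.pos_of_ne_zero (mt Submodule.finrank_eq_zero.1 h1)) h4 (odd_of_nondegOn hQ h3)
        (plane_excl hQ (by omega) (h5 ▸ hH) h3) h6 h5
    rw [Classical.not_imp] at h6
    have hW := ((quadPQ hQ).nondegOn_iff_geo _).2 h3
    have hW' := hW.perp hS
    have hd := hS.finrank_perp W
    rw [finrank_pi] at hd
    obtain ⟨h7, h8⟩ := half_decomp hS hI' h1 (fun g hg v hv => (h hg v).1 hv) hW (by omega)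
    have h9 := plus_geo ((quadPQ hQ).nondegOn_top.2 hS)
    by_cases h10 : Isometric (quadPQ hQ) W ((quadPQ hQ).perp W)
    · refine k2 ⟨h7, fun i j => (isometric_geo (S := quadPQ hQ)).1 (isometric_iff.2 ?_)⟩ (by omega) h8
      fin_cases i <;> fin_cases j
      exacts [.refl _, isometric_iff.1 h10, (isometric_iff.1 h10).symm, .refl _]
    rw [← hW.isCompl.sup_eq_top] at h9
    rcases Nat.even_or_odd (finrank F W) with he | ho
    · have he' : Even (finrank F ((quadPQ hQ).perp W)) := by rwa [show finrank F ((quadPQ hQ).perp W) = finrank F W by omega]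
      rw [plus_sup_iff hW hW' le_rfl he he', hW.isCompl.sup_eq_top] at h9
      replace h9 := h9.2 (by by_contra h0; exact h6.2 ⟨he, h0⟩)
      refine absurd (isometric_orth_even hW hW' he (by omega) ?_) h10
      by_cases h11 : Plus (quadPQ hQ) W
      · have := h9.1 h11
        rw [Plus] at h11 this; omega
      · have := (not_plus_iff hW' he').1 (mt h9.2 h11)
        have := (not_plus_iff hW he).1 h11
        omega
    · rw [plus_sup_of_not_isometric hW hW' ho (by omega) le_rfl h10, hW.isCompl.sup_eq_top] at h9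
      exact .c2x _ _ h7 h6.1 ho (odd_of_nondegOn hQ h3 ho) (mt (isometric_geo (S := quadPQ hQ)).2 h10) h9.symm
        (eq_inf_of_max hH h8 (H8.omega_not_le_decompositionStabilizer hQ (by omega) h7.decomp))
  · exact .c1p v (fun ho => odd_card_iff.1 ho h1) h2 (eq_inf_of_max hH h (H8.omega_not_le_subspaceStabilizer hQ
      (by omega) (by rw [Ne, Submodule.span_singleton_eq_bot]; rintro rfl; exact h2 (PQ.orth_Q_zero _)) fun h0 => by
        have := finrank_span_le_card (R := F) ({v} : Set (ι → F))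
        rw [h0] at this; simp at this; omega))
  · exact k2 h2 (fun h0 => by rcases h1 with h1 | h1; exacts [by omega, h1.2.1]) h
  · exact k2s h0 h1 h2 h
  · by_cases h6 : Odd r → Fintype.card ι ≠ 2 * r
    · exact .c3s r K h1 (dvd_card_of_field h3) h2 h6 (fun ho => H2.Cases.two_mul_dvd_of_selfAdj (isSymplecticForm_polar
        (by rwa [odd_card_iff, not_not] at ho) hQ) h3 h4 (h5 (by rwa [odd_card_iff, not_not] at ho))) h3 h4
        (eq_inf_of_max hH h (H8.omega_not_le_subalgebraNormalizer hQ (by omega) h3 h1.one_lt))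
    push Not at h6
    rcases selfAdj_dim_two hS h0 hI h3 h6.1 h6.2 h h4 h5 with ⟨e, he, he'⟩ | ⟨L, h7, h8, h9, h10⟩
    · obtain ⟨m, hm⟩ := he.isMDecomposition h0
      exact k2s h0 hm (ts_of_pair hS (by omega) h0 hI he he') he.le_stab
    · obtain ⟨k, hk, hk'⟩ := id h10
      rcases selfAdj_or_two hS (fun _ => rfl) Nat.prime_two h7 h9 with h11 | ⟨-, -, h11⟩
      · exact absurd (h11 k hk) hk'
      exact k3 h7 (h9.geo hS) (fun h0 => hk' ((selfAdj_iff hS).1 h0 k hk))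
        (sim_of_unitary hS (by omega) h0 hI h7.comm h8 h9 h10 h11) h8.le_subalgebraNormalizer
  · exact k3 h1 h2 h3 h4 h
  · have h9 := eq_inf_of_max hH h (H8.omega_not_le_tensorProductSubgroup hQ hn (by omega) (by omega) e P)
    have h10 : n₁ * n₂ = Fintype.card ι := by simpa using (Fintype.card_congr e).symm
    by_cases h11 : n₁ = 3 ∧ n₂ = 4
    swap
    · exact .c4o n₁ n₂ e P f₁ f₂ h10 h1 h2 h3 h4 h5 (fun h h' => absurd ⟨h, h'⟩ h11) h6 h7 h8 h9
    obtain ⟨rfl, rfl⟩ := h11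
    rcases three_four hS h0 hc hH.1.le (odd_card_iff.1 h1) h6 h7 h8 h with h11 | ⟨h11, e, P, f₁, f₂, h12, h13, h14, h15, h⟩
    · exact .c4o 3 4 e P f₁ f₂ h10 h1 h2 h3 h4 h5 (fun _ _ => h11) h6 h7 h8 h9
    · exact .c4s 2 6 e P f₁ f₂ h10 le_rfl (by omega) (by decide) (by decide) (fun h => by rw [h.1] at h1; contradiction)
        h12 h13 h14 h15 h11 (eq_inf_of_max hH h (H8.omega_not_le_tensorProductSubgroup hQ hn (by omega) (by omega) e P))
  · exact .c4s n₁ n₂ e P f₁ f₂ (by simpa using (Fintype.card_congr e).symm) h1 h2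
      (by simpa using even_card_of_symplectic h4) (by simpa using even_card_of_symplectic h5) h3 h4 h5 h6 h7 h8
      (eq_inf_of_max hH h (H8.omega_not_le_tensorProductSubgroup hQ hn (by omega) (by omega) e P))
  · exact .c5 F₀ r P ζ h1 h2 h3 (fun he hp => h1.odd_of_ne_two fun h0 => hp (plus_top_rational hS he (h0 ▸ h2) h3 h4)) h4
      (eq_inf_of_max hH h (H8.omega_not_le_subfieldSubgroup hQ (by omega) (ne_top_of_card h1.one_lt h2) _))
  · exact .c67 k t h1 h2 h3.symm h4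
  · exact .c7 k t h1 h2 (by simpa using (Fintype.card_congr e).symm)
  · exact .res h

theorem pow_small {k t n : ℕ} (hk : 2 ≤ k) (ht : 2 ≤ t) (h : k ^ t = n) (hn : n ≤ 15) : n = 4 ∨ n = 8 ∨ n = 9 := by
  rcases hk.lt_or_eq with hk | rfl
  · obtain ⟨rfl, rfl⟩ := pow_eq_small hk ht h hn; omega
  · have := H2.Cases.two_pow_small h.symm hn
    interval_cases t <;> omega

end Cfsg.Agent.Asch
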