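import Cfsg.Agent.Asch.Orth
import Cfsg.Agent.H8.Proper
import Cfsg.Agent.H8.Parity
import Cfsg.Agent.H8.Decomp
import Cfsg.Agent.H8.Plane
import Cfsg.Agent.H2.SpMax

/-!
Maximal subgroups of the groups Ω: exclusions, in the language of the statements.
-/

set_option autoImplicit false
set_option linter.unusedSectionVars false
set_option maxHeartbeats 400000

namespace Cfsg.Agent.Asch

open scoped MatrixGroups Matrix
open Form Module H7

variable {ι : Type} [Fintype ι] [DecidableEq ι] {F : Type*} [Field F] [Fintype F]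
variable {Q : (ι → F) → F} {H : Subgroup (GL ι F)}

theorem not_between {G : Type*} [Group G] {K H : Subgroup G} (hH : Geo.IsMaximalIn K H) : ¬ ∃ M, H < M ∧ M < K := by
  rintro ⟨M, h1, h2⟩
  rcases hH.2 M h1.le h2.le with h | h
  exacts [h1.ne' h, h2.ne h]

theorem max_le_iso (hQ : Geo.IsNondegenerateQuadraticForm Q) (hH : Geo.IsMaximalIn (Geo.omegaGL Q) H) :
    H ≤ isometryGroup F (quadPQ hQ).Q := hH.1.le.trans (Subgroup.map_subtype_le _)

theorem ts_ne_top [Nonempty ι] (hQ : Geo.IsNondegenerateQuadraticForm Q) {W : Submodule F (ι → F)}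
    (h : Geo.IsTotallySingularQuad Q W) : W ≠ ⊤ := by
  rintro rfl
  have := PQ.TS.two_mul_finrank_le (quadPQ_nondeg hQ) (((quadPQ hQ).orth_ts ⊤).2 h)
  rw [finrank_top, finrank_pi] at this
  have := Fintype.card_pos (α := ι)
  omega

theorem plane_excl (hQ : Geo.IsNondegenerateQuadraticForm Q) (hn : 6 ≤ Fintype.card ι) {W : Submodule F (ι → F)}
    (hH : Geo.IsMaximalIn (Geo.omegaGL Q) (Geo.subspaceStabilizer W ⊓ Geo.omegaGL Q))
    (hW : Geo.IsNondegenerateOn (QuadraticMap.polar Q) W) (h2 : finrank F W = 2) (hp : Geo.IsPlusTypeOn Q W) :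
    4 ≤ Fintype.card F := by
  by_contra hq
  refine not_between hH ?_
  obtain ⟨Q, rfl, hN⟩ := H8.exists_quadraticForm hQ
  rw [H8.omegaGL_eq, H8.subspaceStabilizer_eq, ← H8.pull_inf]
  exact H8.between_pull (H8.plane_not_max hN (by rwa [finrank_pi]) (by rw [Nat.card_eq_fintype_card]; omega)
    (H8.ndOn_of_isNondegenerateOn hW) h2 ((H8.isPlusTypeOn_plane h2).1 hp))

theorem submax_excl (hQ : Geo.IsNondegenerateQuadraticForm Q) (hn : 5 ≤ Fintype.card ι) {W : Submodule F (ι → F)}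
    (hH : Geo.IsMaximalIn (Geo.omegaGL Q) (Geo.subspaceStabilizer W ⊓ Geo.omegaGL Q))
    (hW : Geo.IsTotallySingularQuad Q W) (hp : Geo.IsPlusTypeOn Q ⊤) : 2 * (finrank F W + 1) ≠ Fintype.card ι := by
  intro h
  refine not_between hH ?_
  obtain ⟨Q, rfl, hN⟩ := H8.exists_quadraticForm hQ
  rw [H8.omegaGL_eq, H8.subspaceStabilizer_eq, ← H8.pull_inf]
  obtain ⟨U, -, h1, h2⟩ := hp
  exact H8.between_pull (H8.submax_not_max hN (by rwa [finrank_pi]) (U₀ := U) ⟨h1, by rwa [finrank_top] at h2⟩ hW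
    (by rwa [finrank_pi]))

theorem decomp_excl (hQ : Geo.IsNondegenerateQuadraticForm Q) (hn : 7 ≤ Fintype.card ι) {t k : ℕ}
    {D : Fin t → Submodule F (ι → F)}
    (hH : Geo.IsMaximalIn (Geo.omegaGL Q) (Geo.decompositionStabilizer D ⊓ Geo.omegaGL Q))
    (hD : Geo.IsOrthogonalMDecomposition Q k D) :
    (k = 2 → Fintype.card F ≠ 3 ∧ ((∀ i, Geo.IsPlusTypeOn Q (D i)) → 7 ≤ Fintype.card F)) ∧
      (k = 3 → Fintype.card F ≠ 3) ∧ (k = 4 → (∀ i, Geo.IsPlusTypeOn Q (D i)) → 3 ≤ Fintype.card F) := by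
  have hb := not_between hH
  obtain ⟨Q, rfl, hN⟩ := H8.exists_quadraticForm hQ
  rw [H8.omegaGL_eq, H8.decompositionStabilizer_eq, ← H8.pull_inf] at hb
  replace hb := mt H8.between_pull hb
  have hd : finrank F (ι → F) = Fintype.card ι := finrank_pi F
  have h := H8.od_of_geo hD
  have h1 : 1 < Fintype.card F := Fintype.one_lt_card
  have h6 : Fintype.card F ≠ 6 := fun h6 => by
    obtain ⟨p, -, n, hp, hn⟩ := FiniteField.card' F
    exact H7.not_prime_pow_eq hp (hn.symm.trans h6) Nat.prime_two Nat.prime_three (by norm_num) (by norm_num) |>.not_lt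
      (by norm_num)
  rw [← Nat.card_eq_fintype_card] at h1 h6 ⊢
  refine ⟨?_, ?_, ?_⟩
  · rintro rfl
    have h3 := mt (h.not_max_two_three hN (by omega)) hb
    refine ⟨h3, fun hp => ?_⟩
    have hp' := fun i => (H8.isPlusTypeOn_plane (h.dim i)).1 (hp i)
    have h4 := mt (h.not_max_two_char_two hN (by omega) · hp') hb
    have h5 := mt (h.not_max_two_five hN (by omega) · hp') hb
    omega
  · rintro rfl; exact mt (h.not_max_three_three hN (by omega)) hb
  · rintro rfl hp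
    have := mt (h.not_max_four_two hN (by omega) · hp) hb
    omega

theorem pair_excl (hQ : Geo.IsNondegenerateQuadraticForm Q) (hn : 5 ≤ Fintype.card ι) {k : ℕ}
    {D : Fin 2 → Submodule F (ι → F)} (hH : Irr H) (h1 : H ≤ Geo.omegaGL Q) (h2 : H ≤ Geo.decompositionStabilizer D)
    (hD : Geo.IsMDecomposition k D) (hs : ∀ i, Geo.IsTotallySingularQuad Q (D i)) : Even k := by
  by_contra ho
  rw [Nat.not_even_iff_odd] at ho
  have h3 := mul_eq_card_of_decomp hD
  have h4 := hD.finrank_eq 0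
  have h5 := hD.pos
  have h6 : H ≤ Geo.subspaceStabilizer (D 0) := by
    refine (le_inf h2 h1).trans ?_
    obtain ⟨Q, rfl, hN⟩ := H8.exists_quadraticForm hQ
    rw [H8.omegaGL_eq, H8.decompositionStabilizer_eq, ← H8.pull_inf, H8.subspaceStabilizer_eq, H8.pull_le_pull]
    exact H8.DStab_pair_le hN (by rwa [finrank_pi]) ⟨hs 0, by rw [finrank_pi]; omega⟩
      (disjoint_iff.1 (hD.indep.pairwiseDisjoint (by decide : (0 : Fin 2) ≠ 1))) (h4 ▸ ho)
  rcases hH (D 0) fun g hg v hv => (h6 hg v).1 hv with h | h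
  · rw [h, finrank_bot] at h4; omega
  · rw [h, finrank_top, finrank_pi] at h4; omega

theorem plus_of_pair {k : ℕ} {D : Fin 2 → Submodule F (ι → F)} (hD : Geo.IsMDecomposition k D)
    (hs : ∀ i, Geo.IsTotallySingularQuad Q (D i)) : Geo.IsPlusTypeOn Q ⊤ :=
  ⟨D 0, le_top, hs 0, by rw [hD.finrank_eq, finrank_top, finrank_pi, mul_eq_card_of_decomp hD]⟩

theorem odd_of_nondegOn (hQ : Geo.IsNondegenerateQuadraticForm Q) {W : Submodule F (ι → F)}
    (hW : Geo.IsNondegenerateOn (QuadraticMap.polar Q) W) (ho : Odd (finrank F W)) : Odd (Fintype.card F) :=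
  odd_card_iff.2 fun h2 => Nat.not_even_iff_odd.2 ho (H2.Cases.even_of_nondegOn (isSymplecticForm_polar h2 hQ) hW)

theorem le_stab_perp (hQ : Geo.IsNondegenerateQuadraticForm Q) (h1 : H ≤ Geo.omegaGL Q) {W : Submodule F (ι → F)}
    (h : H ≤ Geo.subspaceStabilizer W) : H ≤ Geo.subspaceStabilizer ((quadPQ hQ).perp W) :=
  le_subspaceStabilizer (perp_invariant ((h1.trans (Subgroup.map_subtype_le _)).trans (iso_le_IsoB (S := quadPQ hQ)))
    fun g hg v hv => (h hg v).1 hv)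

/-- in odd dimension a non-degenerate subspace can be taken of even dimension -/
theorem exists_even_nondeg (hQ : Geo.IsNondegenerateQuadraticForm Q) (hn : 6 ≤ Fintype.card ι)
    (ho : Odd (Fintype.card ι)) (hH : Geo.IsMaximalIn (Geo.omegaGL Q) H) {W : Submodule F (ι → F)} (h0 : W ≠ ⊥)
    (h1 : W ≠ ⊤) (hW : Geo.IsNondegenerateOn (QuadraticMap.polar Q) W) (h : H ≤ Geo.subspaceStabilizer W) :
    ∃ W : Submodule F (ι → F), W ≠ ⊥ ∧ Even (finrank F W) ∧ Geo.IsNondegenerateOn (QuadraticMap.polar Q) W ∧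
      ¬ (Fintype.card F = 3 ∧ finrank F W = 2 ∧ Geo.IsPlusTypeOn Q W) ∧
      H = Geo.subspaceStabilizer W ⊓ Geo.omegaGL Q := by
  have hS := quadPQ_nondeg hQ
  wlog he : Even (finrank F W) generalizing W
  · have hd := hS.finrank_perp W
    rw [finrank_pi] at hd
    refine this (W := (quadPQ hQ).perp W) (fun h2 => h1 (by rw [← hS.perp_perp W, h2, PQ.perp_bot]))
      (fun h2 => h0 (by rw [← hS.perp_perp W, h2, hS.perp_top]))
      (((quadPQ hQ).nondegOn_iff_geo _).1 ((((quadPQ hQ).nondegOn_iff_geo _).2 hW).perp hS))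
      (le_stab_perp hQ hH.1.le h) ?_
    rw [Nat.odd_iff] at ho; rw [Nat.even_iff] at he ⊢; omega
  have h2 := eq_inf_of_max hH h (H8.omega_not_le_subspaceStabilizer hQ (by omega) h0 h1)
  refine ⟨W, h0, he, hW, fun h3 => ?_, h2⟩
  have := plane_excl hQ hn (h2 ▸ hH) hW h3.2.1 h3.2.2
  omega

end Cfsg.Agent.Asch
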