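import Cfsg.Agent.Asch.OField

/-!
Tensor products with a four-dimensional orthogonal factor.
-/

set_option autoImplicit false
set_option linter.unusedSectionVars false
set_option maxHeartbeats 400000

namespace Cfsg.Agent.Asch

open scoped MatrixGroups Matrix Kronecker
open Form Module

variable {ι : Type} [Fintype ι] [DecidableEq ι] {F : Type*} [Field F] [Fintype F]
variable {S : PQ (FP.orth F) (ι → F)} {H : Subgroup (GL ι F)}

/-- the Pfaffian in size four -/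
def pf4 (A : Matrix (Fin 4) (Fin 4) F) : F := A 0 1 * A 2 3 - A 0 2 * A 1 3 + A 0 3 * A 1 2

theorem skew_four (h2 : (2 : F) ≠ 0) {A : Matrix (Fin 4) (Fin 4) F} (h : Aᵀ = -A) :
    ∃ a b c d e f : F, A = !![0, a, b, c; -a, 0, d, e; -b, -d, 0, f; -c, -e, -f, 0] := by
  have h1 : ∀ i j, A j i = -A i j := fun i j => congrFun (congrFun h i) j
  refine ⟨A 0 1, A 0 2, A 0 3, A 1 2, A 1 3, A 2 3, ?_⟩
  ext i j
  fin_cases i <;> fin_cases j <;> first | rfl | exact h1 _ _ | exact diag_eq_zero_of_skew h2 h _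

theorem pf4_congr (h2 : (2 : F) ≠ 0) {A : Matrix (Fin 4) (Fin 4) F} (h : Aᵀ = -A) (B : Matrix (Fin 4) (Fin 4) F) :
    pf4 (Bᵀ * A * B) = B.det * pf4 A := by
  obtain ⟨a, b, c, d, e, f, rfl⟩ := skew_four h2 h
  simp [pf4, Matrix.mul_apply, Fin.sum_univ_four, Matrix.det_succ_row_zero, Fin.sum_univ_succ, Fin.succAbove]
  ring

/-- the Gram matrix of the tensor square of the alternating plane -/
def G4 (F : Type*) [Field F] : Matrix (Fin 4) (Fin 4) F := !![0, 0, 0, 1; 0, 0, -1, 0; 0, -1, 0, 0; 1, 0, 0, 0]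

theorem G4_mul : G4 F * G4 F = 1 := by
  ext i j; fin_cases i <;> fin_cases j <;> simp [G4, Matrix.mul_apply, Fin.sum_univ_four]

theorem G4_transpose : (G4 F)ᵀ = G4 F := by ext i j; fin_cases i <;> fin_cases j <;> simp [G4]

theorem G4_det : (G4 F).det = 1 := by
  simp [G4, Matrix.det_succ_row_zero, Fin.sum_univ_succ, Fin.succAbove]; ring

/-- the left factor -/
def psi4 (F : Type*) [Field F] : Matrix (Fin 2) (Fin 2) F →ₐ[F] Matrix (Fin 4) (Fin 4) F where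
  toFun Y := !![Y 0 0, 0, Y 0 1, 0; 0, Y 0 0, 0, Y 0 1; Y 1 0, 0, Y 1 1, 0; 0, Y 1 0, 0, Y 1 1]
  map_one' := by ext i j; fin_cases i <;> fin_cases j <;> simp
  map_mul' X Y := by ext i j; fin_cases i <;> fin_cases j <;> simp [Matrix.mul_apply, Fin.sum_univ_four]
  map_zero' := by ext i j; fin_cases i <;> fin_cases j <;> simp
  map_add' X Y := by ext i j; fin_cases i <;> fin_cases j <;> simp
  commutes' c := by ext i j; fin_cases i <;> fin_cases j <;> simp [Matrix.algebraMap_matrix_apply]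

theorem psi4_apply (Y : Matrix (Fin 2) (Fin 2) F) :
    psi4 F Y = !![Y 0 0, 0, Y 0 1, 0; 0, Y 0 0, 0, Y 0 1; Y 1 0, 0, Y 1 1, 0; 0, Y 1 0, 0, Y 1 1] := rfl

theorem adjG_psi4 (Y : Matrix (Fin 2) (Fin 2) F) : adjG (RingHom.id F) (G4 F) (psi4 F Y) = psi4 F Y.adjugate := by
  rw [adjG_eq_iff (fun _ => rfl) (by simp [G4_det])]
  ext i j
  fin_cases i <;> fin_cases j <;> simp [psi4_apply, G4, Matrix.mul_apply, Fin.sum_univ_four, Matrix.adjugate_fin_two]

theorem mem_psi4 (h2 : (2 : F) ≠ 0) {x : Matrix (Fin 4) (Fin 4) F} (h : (G4 F * x)ᵀ = -(G4 F * x)) {δ : F}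
    (h0 : δ ≠ 0) (h1 : x * x = δ • 1) (h3 : pf4 (G4 F * x) = -δ) : x ∈ (psi4 F).range := by
  obtain ⟨a, b, c, d, e, f, hA⟩ := skew_four h2 h
  rw [hA] at h3
  obtain rfl : x = !![-c, -e, -f, 0; b, d, 0, -f; a, 0, -d, -e; 0, a, b, c] := by
    rw [← one_mul x, ← G4_mul, mul_assoc, hA]
    ext i j; fin_cases i <;> fin_cases j <;> simp [G4, Matrix.mul_apply, Fin.sum_univ_four]
  have k := fun i j => congrFun (congrFun h1 i) j
  have k1 := k 0 0
  have k2 := k 1 1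
  have k3 := k 0 1
  have k4 := k 0 3
  have k5 := k 1 0
  have k6 := k 1 2
  simp only [Matrix.mul_apply, Fin.sum_univ_four, pf4] at k1 k2 k3 k4 k5 k6 h3
  simp [-add_eq_zero, -mul_eq_zero, -neg_add_rev] at k1 k2 k3 k4 k5 k6 h3
  have h4 : 2 * (2 * δ) ≠ 0 := by simp [h2, h0]
  have h5 : 4 * δ = (d - c) ^ 2 - 4 * a * f := by linear_combination -k1 - k2 + 2 * h3
  obtain rfl : e = 0 := (mul_eq_zero.1 (by linear_combination e * h5 - (d - c) * k3 - 2 * a * k4)).resolve_left h4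
  obtain rfl : b = 0 := (mul_eq_zero.1 (by linear_combination b * h5 + (d - c) * k5 + 2 * a * k6)).resolve_left h4
  obtain rfl : d = -c := eq_neg_of_add_eq_zero_left (pow_eq_zero_iff two_ne_zero |>.1
    (by linear_combination k1 + k2 + 2 * h3))
  exact ⟨!![-c, -f; a, c], by simp [psi4_apply]⟩

theorem cj_psi4 (h2 : (2 : F) ≠ 0) {b : GL (Fin 4) F} {m : F} (h : b.valᵀ * G4 F * b.val = m • G4 F)
    (hd : b.val.det = m ^ 2) (Y : Matrix (Fin 2) (Fin 2) F) : cj b (psi4 F Y) ∈ (psi4 F).range := by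
  have key : ∀ p q r : F, p ^ 2 + q * r ≠ 0 → cj b (psi4 F !![p, q; r, -p]) ∈ (psi4 F).range := fun p q r h0 => by
    have h1 : b.valᵀ * (G4 F * cj b (psi4 F !![p, q; r, -p])) * b.val = m • (G4 F * psi4 F !![p, q; r, -p]) := by
      rw [← mul_assoc, mul_assoc _ _ b.val, cj_mul_self, ← mul_assoc, h, Matrix.smul_mul]
    have h3 : (G4 F * cj b (psi4 F !![p, q; r, -p]))ᵀ = -(G4 F * cj b (psi4 F !![p, q; r, -p])) := by
      refine (Matrix.isUnit_transpose _ |>.2 b.isUnit).mul_left_cancel (b.isUnit.mul_right_cancel ?_)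
      rw [mul_neg, neg_mul, h1, ← Matrix.transpose_mul, ← Matrix.transpose_transpose b.val, ← Matrix.transpose_mul,
        Matrix.transpose_transpose, ← mul_assoc, h1]
      ext i j; fin_cases i <;> fin_cases j <;> simp [psi4_apply, G4, Matrix.mul_apply, Fin.sum_univ_four]
    refine mem_psi4 h2 h3 h0 ?_ (mul_left_cancel₀ b.det_ne_zero ?_)
    · rw [← map_mul, ← map_mul, ← map_one (cj b), ← map_one (psi4 F), ← map_smul, ← map_smul]
      congr 2
      ext i j; fin_cases i <;> fin_cases j <;> simp [Matrix.mul_apply] <;> ring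
    · rw [← pf4_congr h2 h3, h1, hd]
      simp [pf4, psi4_apply, G4, Matrix.mul_apply, Fin.sum_univ_four]; ring
  have : Y = ((Y 0 0 + Y 1 1) / 2) • 1 + ((Y 0 0 - Y 1 1) / 2) • !![1, 0; 0, -1] +
      ((Y 0 1 + Y 1 0) / 2) • !![0, 1; 1, -0] + ((Y 0 1 - Y 1 0) / 2) • !![0, 1; -1, -0] := by
    ext i j; fin_cases i <;> fin_cases j <;> simp <;> field_simp <;> ring
  rw [this]
  simp only [map_add, map_smul, map_one]
  exact add_mem (add_mem (add_mem (Subalgebra.smul_mem _ (one_mem _) _) (Subalgebra.smul_mem _ (key _ _ _ (by simp)) _))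
    (Subalgebra.smul_mem _ (key _ _ _ (by simp)) _)) (Subalgebra.smul_mem _ (key _ _ _ (by simp)) _)

theorem det_eq_one_of_omega {Q : (ι → F) → F} {g : GL ι F} (h : g ∈ Geo.omegaGL Q) : g.val.det = 1 := by
  have : Geo.omegaGL Q ≤ Geo.specialLinear ι F := by
    rw [omegaGL_eq, Subgroup.commutator_le]
    intro a _ b _
    rw [Geo.specialLinear, MonoidHom.mem_ker, map_commutatorElement, commutatorElement_eq_one_iff_mul_comm, mul_comm]
  exact congrArg Units.val (MonoidHom.mem_ker.1 (this h))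

theorem three_four (hS : S.Nondeg) (hH : Irr H) (hc : NoComm S H) (hO : H ≤ Geo.omegaGL S.Q) (h2 : (2 : F) ≠ 0)
    {e : ι ≃ Fin 3 × Fin 4} {P : GL ι F} {f₁ : (Fin 3 → F) → (Fin 3 → F) → F} {f₂ : (Fin 4 → F) → (Fin 4 → F) → F}
    (h1 : Geo.IsSymmetricForm f₁) (h3 : Geo.IsSymmetricForm f₂) (hT : Geo.IsTensorFormStructure id S.B f₁ f₂ e P)
    (h : H ≤ Geo.tensorProductSubgroup 3 4 e P) :
    (¬ Geo.IsPlusTypeOn (fun v => f₂ v v) ⊤ ∧ ¬ Geo.IsPlusTypeOn S.Q ⊤) ∨ (Geo.IsPlusTypeOn S.Q ⊤ ∧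
      ∃ (e : ι ≃ Fin 2 × Fin 6) (P : GL ι F) (f₁ : (Fin 2 → F) → (Fin 2 → F) → F) (f₂ : (Fin 6 → F) → (Fin 6 → F) → F),
        Geo.IsSymplecticForm f₁ ∧ Geo.IsSymplecticForm f₂ ∧ Geo.IsTensorFormStructure id S.B f₁ f₂ e P ∧
        (∀ (x₁ : Fin 2 → F) (x₂ : Fin 6 → F), S.Q (P.val *ᵥ ((fun a : Fin 2 × Fin 6 => x₁ a.1 * x₂ a.2) ∘ e)) = 0) ∧
        H ≤ Geo.tensorProductSubgroup 2 6 e P) := by
  have hI : H ≤ isometryGroup F S.Q := hO.trans (Subgroup.map_subtype_le _)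
  have hI' := hI.trans iso_le_IsoB
  have hn : Fintype.card ι = 12 := by simpa using Fintype.card_congr e
  obtain ⟨c, hc0, hT⟩ := hT
  have d1 := (sesq_of_bilinear h1.bilinear).det_ne_zero (fun _ => rfl) h1.nondegenerate
  have d2 := (sesq_of_bilinear h3.bilinear).det_ne_zero (fun _ => rfl) h3.nondegenerate
  have hG : HasGram S (fr e P) ((c • Geo.gramMatrix f₁) ⊗ₖ Geo.gramMatrix f₂) := fun x y => by
    rw [fr_apply, fr_apply, hT, Matrix.smul_kronecker, ofG_smul, ofG_eq_formOfGram]; rfl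
  by_cases hs : IsSquare (Geo.gramMatrix f₂).det
  swap
  · refine .inl ⟨fun hp => hs ?_, fun hp => hs ?_⟩
    · obtain ⟨h4, h5⟩ := isNondegQuad_of_symm h2 h3
      obtain ⟨s, hs⟩ := isSquare_det_of_plus (quadPQ_nondeg h4) hp (by simp) (Φ := LinearEquiv.refl F _)
        (G := (2 : F) • Geo.gramMatrix f₂) fun x y => by
          rw [ofG_smul]
          exact (h5 x y).trans (congrArg (2 * ·) ((sesq_of_bilinear h3.bilinear).eq_ofG x y))
      exact ⟨s / 2 ^ 2, by simp at hs; field_simp; linear_combination hs⟩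
    · obtain ⟨s, hs⟩ := isSquare_det_of_plus hS hp (by omega) hG
      exact ⟨s / (c ^ 6 * (Geo.gramMatrix f₁).det ^ 2 * (Geo.gramMatrix f₂).det), by
        simp [Matrix.det_kronecker] at hs; field_simp; linear_combination hs⟩
  obtain ⟨a, ha⟩ := exists_congr h2 (G := Geo.gramMatrix f₂) (by ext i j; exact h3.symm _ _) G4_transpose d2
    (by simp [G4_det]) (by simpa [G4_det] using hs)
  obtain ⟨ε₁, ε₂, h4⟩ := tcore_of_gram hI' (by simp [hc0, d1]) d2 hG
    fun g hg => (mem_tensorProductSubgroup_iff e P g).1 (h hg)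
  obtain ⟨Φ, ε₁, ε₂, h5⟩ := h4.gl₂ hI' a
  rw [show ⇑(FP.orth F).σ = id from rfl, Matrix.map_id, ha] at h5
  let φ := ((tr Φ).symm.toAlgHom.comp (kronR (Fin 3) (Fin 4) F)).comp (psi4 F)
  have hφ : ∀ Y, tr Φ (φ Y) = 1 ⊗ₖ psi4 F Y := fun Y => (tr Φ).apply_symm_apply _
  have hN : Norms H φ.range := by
    rintro g hg _ ⟨Y, rfl⟩
    obtain ⟨a, b, m, hm, h6, h7, h8⟩ := h5.kron g hg
    rw [show ⇑(FP.orth F).σ = id from rfl, Matrix.map_id] at h7 h8
    obtain ⟨Z, hZ⟩ := cj_psi4 h2 h8 (by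
      have k1 := (det_tr Φ _).symm.trans (congrArg Matrix.det h6) |>.symm.trans (det_eq_one_of_omega (hO hg))
      have k2 := congrArg Matrix.det h7
      have k3 := congrArg Matrix.det h8
      simp [Matrix.det_kronecker, G4_det, -mul_eq_mul_right_iff] at k1 k2 k3
      replace k2 : a.val.det ^ 2 = m ^ 3 := mul_right_cancel₀ (mul_ne_zero (pow_ne_zero 3 hc0) d1)
        (by linear_combination k2)
      field_simp at k3 ⊢
      linear_combination k1 - b.val.det ^ 3 * (a.val.det ^ 2 + m ^ 3) * k2 - b.val.det * m ^ 2 * k3) Y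
    refine ⟨Z, (tr Φ).injective ?_⟩
    change tr Φ (φ Z) = tr Φ (cj g (φ Y))
    rw [tr_cj, hφ, hφ, eq_comm, cj_eq_iff, coe_trG, h6, ← Matrix.mul_kronecker_mul, ← Matrix.mul_kronecker_mul,
      show psi4 F Z = _ from hZ, cj_mul_self, mul_one, one_mul]
  have hA : AdjC S (φ.range : Set (Matrix ι ι F)) := by
    rintro _ ⟨Y, rfl⟩
    refine ⟨Y.adjugate, (tr Φ).injective ?_⟩
    change tr Φ (φ _) = tr Φ (adj S (φ Y))
    rw [h5.gram.tr_adj hS, hφ, hφ, adjG_kron (fun _ => rfl) h5.det₁ h5.det₂, adjG_one' (fun _ => rfl) h5.det₁,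
      ← adjG_psi4]; rfl
  obtain ⟨l, Ψ, hΨ⟩ := exists_frame_of_algHom φ
  obtain rfl : l = 6 := by have := card_eq_of_frame Ψ; simp [hn] at this; omega
  obtain ⟨G₁, G₂, ε₁, ε₂, h6⟩ := exists_tcore hS hI' hN hA (Φ := Ψ) fun X =>
    ⟨by rintro ⟨Y, rfl⟩; exact ⟨Y, hΨ Y⟩, fun ⟨Y, hY⟩ => ⟨Y, (tr Ψ).injective ((hΨ Y).trans hY.symm)⟩⟩
  have h7 := h6.mul
  rcases mul_self_eq_one_iff.1 (herm_scalar (fun _ => rfl) (ne_zero_of_det h6.det₁) h6.herm₁) with rfl | rfl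
  · exact absurd (bad_symm_two h2 (by simpa [FP.orth] using h6.herm₁) h6.det₁) (h6.not_bad hS hc)
  obtain rfl : ε₂ = -1 := by simpa [neg_eq_iff_eq_neg] using h7
  have h8 : G₁ᵀ = -G₁ := by simpa [FP.orth] using h6.herm₁
  have h9 : G₂ᵀ = -G₂ := by simpa [FP.orth] using h6.herm₂
  have h8' := diag_eq_zero_of_skew h2 h8
  have h9' := diag_eq_zero_of_skew h2 h9
  obtain ⟨h10, h11⟩ := h6.symp hS hH hI le_rfl (by norm_num) h8 h8' h9 h9'
  obtain ⟨e', P', rfl⟩ := exists_fr' Ψ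
  have := h6.tensorForm one_ne_zero one_ne_zero
  rw [one_smul, one_smul] at this
  exact .inr ⟨h11, e', P', _, _, isSymplecticForm_ofG h8 h8' h6.det₁, isSymplecticForm_ofG h9 h9' h6.det₂, this, h10,
    h6.le_tensor⟩

end Cfsg.Agent.Asch
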