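import Cfsg.Agent.Asch.OMax0
import Cfsg.Agent.H9.FAdapt

/-!
Types of orthogonal spaces with extra structure.
-/

set_option autoImplicit false
set_option linter.unusedSectionVars false
set_option maxHeartbeats 400000

namespace Cfsg.Agent.Asch

open scoped MatrixGroups Matrix
open Form Module Submodule H9.FIdx H9.FCount H9.FClass H9.FOrd

section
variable {F : Type*} [Field F] [Fintype F] {V : Type*} [AddCommGroup V] [Module F V] [FiniteDimensional F V]
variable {S : PQ (FP.orth F) V}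

theorem Q_comb (S : PQ (FP.orth F) V) (a b : F) (x y : V) :
    S.Q (a • x + b • y) = a ^ 2 * S.Q x + a * b * S.B x y + b ^ 2 * S.Q y := by
  simp [S.orth_Q_add, S.orth_Q_smul]; ring

theorem plane_data {x y : V} (h : S.B x x * S.B y y - S.B x y ^ 2 ≠ 0) :
    S.NondegOn (span F {x, y}) ∧ finrank F (span F {x, y}) = 2 ∧
      (Plus S (span F {x, y}) ↔ ∃ a b : F, ¬ (a = 0 ∧ b = 0) ∧ S.Q (a • x + b • y) = 0) := by
  have key : ∀ a b : F, S.B (a • x + b • y) x = 0 → S.B (a • x + b • y) y = 0 → a = 0 ∧ b = 0 := fun a b h1 h2 => by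
    simp only [S.B_add_left, S.B_smul_left, S.orth_B_swap x y] at h1 h2
    exact ⟨(mul_eq_zero.1 (by linear_combination S.B y y * h1 - S.B x y * h2)).resolve_right h,
      (mul_eq_zero.1 (by linear_combination S.B x x * h2 - S.B x y * h1)).resolve_right h⟩
  have h1 : S.NondegOn (span F {x, y}) := fun v hv h0 => by
    obtain ⟨a, b, rfl⟩ := mem_span_pair.1 hv
    obtain ⟨rfl, rfl⟩ := key a b (h0 x (subset_span (by simp))) (h0 y (subset_span (by simp)))
    simp
  have hli : LinearIndependent F ![x, y] := LinearIndependent.pair_iff.2 fun a b h0 => key a b (by simp [h0]) (by simp [h0])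
  have h2 : finrank F (span F {x, y}) = 2 := by
    have := finrank_span_eq_card hli
    rwa [Matrix.range_cons_cons_empty, Fintype.card_fin] at this
  refine ⟨h1, h2, ?_⟩
  have h3 := two_mul_widx_le h1
  rw [Plus, h2, show 2 * widx S (span F {x, y}) = 2 ↔ ¬ widx S (span F {x, y}) = 0 by omega, widx_eq_zero_iff]
  push Not
  constructor
  · rintro ⟨v, hv, h4, h5⟩
    obtain ⟨a, b, rfl⟩ := mem_span_pair.1 hv
    exact ⟨a, b, by rintro rfl rfl; simp at h5, (S.orth_sing _).1 h4⟩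
  · rintro ⟨a, b, h4, h5⟩
    exact ⟨_, mem_span_pair.2 ⟨a, b, rfl⟩, (S.orth_sing _).2 h5, fun h0 =>
      h4 (LinearIndependent.pair_iff.1 hli a b h0).1 (LinearIndependent.pair_iff.1 hli a b h0).2⟩

theorem odd_split {A : Submodule F V} (hA : S.NondegOn A) (ho : Odd (finrank F A)) :
    ∃ H a, S.NondegOn H ∧ Plus S H ∧ a ∈ S.perp H ∧ S.B a a ≠ 0 ∧ H ⊔ span F {a} = A ∧
      finrank F H + 1 = finrank F A := by
  obtain ⟨H, -, h1, h2, h3, h4, h5, -, h6⟩ := exists_hyp_split hA le_rfl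
  have h7 := widx_odd hA ho
  obtain ⟨a, ha, ha0⟩ := (A ⊓ S.perp H).exists_mem_ne_zero_of_ne_bot fun h0 => by
    rw [h0, finrank_bot] at h6; omega
  have h8 : span F {a} = A ⊓ S.perp H := eq_of_le_of_finrank_eq ((span_singleton_le_iff_mem _ _).2 ha)
    (by rw [finrank_span_singleton ha0]; omega)
  refine ⟨H, a, h1, by rw [Plus, h2, h3], ha.2, fun h0 => ha0 (h4 a ha fun y hy => ?_), h8 ▸ h5, by omega⟩
  obtain ⟨c, rfl⟩ := mem_span_singleton.1 (h8 ▸ hy)
  simp [h0]

theorem plus_odd_pair {H H' : Submodule F V} {a a' : V} (h1 : S.NondegOn H) (h2 : Plus S H) (h4 : S.B a a ≠ 0)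
    (h3 : a ∈ S.perp H) (h1' : S.NondegOn H') (h2' : Plus S H') (h3' : a' ∈ S.perp H') (h4' : S.B a' a' ≠ 0)
    (h : H' ⊔ span F {a'} ≤ S.perp (H ⊔ span F {a})) :
    Plus S ((H ⊔ span F {a}) ⊔ (H' ⊔ span F {a'})) ↔ IsSquare (-(S.Q a * S.Q a')) := by
  rw [S.perp_sup, le_inf_iff, sup_le_iff, sup_le_iff, span_singleton_le_iff_mem, span_singleton_le_iff_mem,
    S.mem_perp_span_singleton, S.le_perp_comm (U := H') (W := span F {a}), span_singleton_le_iff_mem] at h
  obtain ⟨⟨h5, h6⟩, h7, h8⟩ := h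
  rw [S.orth_B_swap] at h8
  obtain ⟨h9, -, h10⟩ := plane_data (S := S) (x := a) (y := a') (by simp [h4, h4', h8])
  have h11 : span F {a, a'} ≤ S.perp H' := span_le.2 (by rintro _ (rfl | rfl) <;> assumption)
  have h12 : span F {a, a'} ≤ S.perp H := span_le.2 (by rintro _ (rfl | rfl) <;> assumption)
  rw [show (H ⊔ span F {a}) ⊔ (H' ⊔ span F {a'}) = H ⊔ (H' ⊔ span F {a, a'}) by rw [span_insert]; ac_rfl,
    h2.sup_iff h1 (h1'.sup h9 h11) (sup_le h5 h12), h2'.sup_iff h1' h9 h11, h10]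
  have h13 : S.Q a ≠ 0 := fun h0 => h4 (by rw [S.orth_B_self, h0, mul_zero])
  have h14 : S.Q a' ≠ 0 := fun h0 => h4' (by rw [S.orth_B_self, h0, mul_zero])
  simp only [Q_comb, h8]
  constructor
  · rintro ⟨x, y, h0, h⟩
    have hy : y ≠ 0 := by rintro rfl; exact h0 ⟨by simpa [h13] using h, rfl⟩
    exact ⟨x * S.Q a / y, by field_simp; linear_combination -h⟩
  · rintro ⟨s, hs⟩
    exact ⟨s, S.Q a, fun h0 => h13 h0.2, by linear_combination -S.Q a * hs⟩

theorem card_mod_four (h2 : (2 : F) ≠ 0) : Fintype.card F % 4 = 1 ∨ Fintype.card F % 4 = 3 := by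
  have := Nat.odd_iff.1 (odd_card_iff.2 h2); omega

theorem plus_sup_of_isometric (hS : S.Nondeg) {A A' : Submodule F V} (hA : S.NondegOn A) (ho : Odd (finrank F A))
    (h : A' ≤ S.perp A) (hi : Isometric S A A') : Plus S (A ⊔ A') ↔ Fintype.card F % 4 = 1 := by
  obtain ⟨e, he⟩ := hi
  obtain ⟨g, hg, rfl, -⟩ := hS.exists_map_eq e he
  obtain ⟨H, a, h1, h2, h3, h4, rfl, -⟩ := odd_split hA ho
  have h5 : S.Q (g a) = S.Q a := (S.orth_mem_isom g).1 hg a
  have h6 : S.Q a ≠ 0 := fun h0 => h4 (by rw [S.orth_B_self, h0, mul_zero])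
  rw [Submodule.map_sup, map_span, Set.image_singleton] at h ⊢
  rw [plus_odd_pair h1 h2 h4 h3 ((PQ.nondegOn_map_iff hg H).2 h1)
    (by rw [Plus, widx_map_isom hg, LinearEquiv.finrank_map_eq]; exact h2)
    (PQ.map_perp hg H ▸ mem_map_of_mem h3) (by rwa [LinearEquiv.coe_coe, PQ.B_isom hg]) h, LinearEquiv.coe_coe, h5]
  have := card_mod_four (F := F) fun h0 => h4 (by rw [S.orth_B_self, h0, zero_mul])
  rw [show Fintype.card F % 4 = 1 ↔ Fintype.card F % 4 ≠ 3 by omega, ← FiniteField.isSquare_neg_one_iff]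
  exact ⟨fun ⟨s, hs⟩ => ⟨s / S.Q a, by field_simp; linear_combination hs⟩,
    fun ⟨s, hs⟩ => ⟨s * S.Q a, by linear_combination S.Q a ^ 2 * hs⟩⟩

theorem plus_sup_of_not_isometric {A A' : Submodule F V} (hA : S.NondegOn A) (hA' : S.NondegOn A')
    (ho : Odd (finrank F A)) (hd : finrank F A = finrank F A') (h : A' ≤ S.perp A) (hi : ¬ Isometric S A A') :
    Plus S (A ⊔ A') ↔ Fintype.card F % 4 = 3 := by
  obtain ⟨H, a, h1, h2, h3, h4, rfl, h5⟩ := odd_split hA ho
  obtain ⟨H', a', h1', h2', h3', h4', rfl, h5'⟩ := odd_split hA' (hd ▸ ho)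
  have h6 : S.Q a ≠ 0 := fun h0 => h4 (by rw [S.orth_B_self, h0, mul_zero])
  have h6' : S.Q a' ≠ 0 := fun h0 => h4' (by rw [S.orth_B_self, h0, mul_zero])
  have h7 : ¬ IsSquare (S.Q a * S.Q a') := by
    rintro ⟨s, hs⟩
    have hs0 : s ≠ 0 := by rintro rfl; simp [h6, h6'] at hs
    have ha : a ≠ 0 := by rintro rfl; simp at h4
    have ha' : a' ≠ 0 := by rintro rfl; simp at h4'
    have h8 : S.Q ((s / S.Q a') • a') = S.Q a := by rw [S.orth_Q_smul]; field_simp; linear_combination -hs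
    refine hi (isometric_iff.2 (((iso_prod_sup h1 ((span_singleton_le_iff_mem _ _).2 h3)).symm.trans
      (Iso.prod (iso_of_hyp h1.restrict h1'.restrict (by rw [widx_restrict]; exact h2)
        (by rw [widx_restrict]; exact h2') (by omega)) ?_)).trans
          (iso_prod_sup h1' ((span_singleton_le_iff_mem _ _).2 h3'))))
    exact iso_of_one (v := ⟨a, mem_span_singleton_self a⟩)
      (v' := ⟨(s / S.Q a') • a', smul_mem _ _ (mem_span_singleton_self a')⟩) (finrank_span_singleton ha)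
      (finrank_span_singleton ha') (by simpa using ha) (by simp [hs0, h6', ha'])
      (by simp only [PQ.comap_B, subtype_apply, S.orth_B_self, h8]) (by simp only [PQ.comap_Q, subtype_apply, h8]; simp)
  rw [plus_odd_pair h1 h2 h4 h3 h1' h2' h3' h4' h, ← not_not (a := _ = 3), ← Ne, ← FiniteField.isSquare_neg_one_iff]
  exact ⟨fun h8 h9 => h7 (by simpa using h9.mul h8), fun h8 => by simpa using isSquare_mul_of_not h8 h7⟩

variable {τ : Type*} [DecidableEq τ] {D : τ → Submodule F V}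

theorem sup_data (hn : ∀ i, S.NondegOn (D i)) (ho : ∀ i j, i ≠ j → D j ≤ S.perp (D i)) (s : Finset τ) :
    S.NondegOn (s.sup D) ∧ ∀ j ∉ s, s.sup D ≤ S.perp (D j) := by
  induction s using Finset.induction_on with
  | empty => exact ⟨S.nondegOn_bot, fun _ _ => bot_le⟩
  | insert i s hi ih =>
    rw [Finset.sup_insert]
    exact ⟨(hn i).sup ih.1 (ih.2 i hi), fun j hj => sup_le (ho j i fun h => hj (by simp [h]))
      (ih.2 j fun h => hj (by simp [h]))⟩

theorem plus_sup_even (hn : ∀ i, S.NondegOn (D i)) (ho : ∀ i j, i ≠ j → D j ≤ S.perp (D i))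
    (he : ∀ i, Even (finrank F (D i))) {p : Prop} (hp : ∀ i, Plus S (D i) ↔ p) (s : Finset τ) :
    Even (finrank F (s.sup D :)) ∧ (Plus S (s.sup D) ↔ p ∨ Even s.card) := by
  induction s using Finset.induction_on with
  | empty => rw [Finset.sup_empty]; simp [plus_bot]
  | insert i s hi ih =>
    obtain ⟨h1, h2⟩ := sup_data hn ho s
    rw [Finset.sup_insert, finrank_sup_of_le_perp (hn i) (h2 i hi), plus_sup_iff (hn i) h1 (h2 i hi) (he i) ih.1,
      ih.2, hp, Finset.card_insert_of_notMem hi, Nat.even_add_one]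
    exact ⟨(he i).add ih.1, by tauto⟩

theorem plus_sup_odd (hn : ∀ i, S.NondegOn (D i)) (ho : ∀ i j, i ≠ j → D j ≤ S.perp (D i))
    (he : ∀ i, Odd (finrank F (D i))) {p : Prop} (hp : ∀ i j, i ≠ j → (Plus S (D i ⊔ D j) ↔ p)) (m : ℕ) :
    ∀ s : Finset τ, s.card = 2 * m → Even (finrank F (s.sup D :)) ∧ (Plus S (s.sup D) ↔ p ∨ Even m) := by
  induction m with
  | zero => intro s hs; rw [Finset.card_eq_zero.1 hs, Finset.sup_empty]; simp [plus_bot]
  | succ m ih =>
    intro s hs₀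
    obtain ⟨i, s', hi, rfl, hs'⟩ := Finset.card_eq_succ.1 (show s.card = 2 * m + 1 + 1 from hs₀)
    obtain ⟨j, s, hj, rfl, hs⟩ := Finset.card_eq_succ.1 hs'
    obtain ⟨h1, h2⟩ := sup_data hn ho s
    have hij : i ≠ j := fun h => hi (by simp [h])
    have h3 := (hn i).sup (hn j) (ho i j hij)
    have h4 : s.sup D ≤ S.perp (D i ⊔ D j) := S.perp_sup _ _ ▸ le_inf (h2 i fun h => hi (by simp [h])) (h2 j hj)
    have h5 : Even (finrank F ↥(D i ⊔ D j)) := finrank_sup_of_le_perp (hn i) (ho i j hij) ▸ (he i).add_odd (he j)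
    rw [Finset.sup_insert, Finset.sup_insert, ← sup_assoc, finrank_sup_of_le_perp h3 h4,
      plus_sup_iff h3 h1 h4 h5 (ih s hs).1, (ih s hs).2, hp i j hij, Nat.even_add_one]
    exact ⟨h5.add (ih s hs).1, by tauto⟩

theorem exists_root {F₀ : Subfield F} (hc : Fintype.card F = Nat.card F₀ ^ 2) {a b c : F} (ha : a ∈ F₀) (hb : b ∈ F₀)
    (hc' : c ∈ F₀) (h0 : a ≠ 0) : ∃ t : F, a * t ^ 2 + b * t + c = 0 := by
  open Polynomial in
  let f : F₀[X] := C ⟨a, ha⟩ * X ^ 2 + C ⟨b, hb⟩ * X + C ⟨c, hc'⟩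
  have hd : f.natDegree = 2 := natDegree_quadratic fun h => h0 (congrArg Subtype.val h)
  have h2 : finrank F₀ F = 2 :=
    Nat.pow_right_injective Finite.one_lt_card ((card_eq_pow_finrank_subfield F₀).symm.trans hc)
  suffices ∃ t : F, aeval t f = 0 by simp [f] at this; exact this
  by_cases hi : Irreducible f
  · have := Fact.mk hi
    obtain ⟨φ⟩ := FiniteField.nonempty_algHom_of_finrank_dvd (F := F₀) (K := AdjoinRoot f) (L := F)
      (by rw [h2, ← hd]; exact (finrank_quotient_span_eq_natDegree (f := f)).dvd)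
    exact ⟨φ (AdjoinRoot.root f), by rw [aeval_algHom_apply]; simp⟩
  · rw [irreducible_iff_roots_eq_zero_of_degree_le_three hd.ge (by omega)] at hi
    obtain ⟨t, ht⟩ := Multiset.exists_mem_of_ne_zero hi
    exact ⟨t, by rw [show (t : F) = algebraMap F₀ F t from rfl, aeval_algebraMap_apply_eq_algebraMap_eval,
      (isRoot_of_mem_roots ht).eq_zero, map_zero]⟩

theorem plus_of_rational {F₀ : Subfield F} (hc : Fintype.card F = Nat.card F₀ ^ 2) {R : Submodule F₀ V}
    (hR : ∀ v ∈ R, S.Q v ∈ F₀) (j : ℕ) :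
    ∀ W : Submodule F V, S.NondegOn W → finrank F W = 2 * j → W ≤ span F (R ∩ W : Set V) → Plus S W := by
  have hB : ∀ u ∈ R, ∀ v ∈ R, S.B u v ∈ F₀ := fun u hu v hv => by
    have := sub_mem (sub_mem (hR _ (R.add_mem hu hv)) (hR u hu)) (hR v hv)
    rwa [S.orth_Q_add, show ∀ a b c : F, a + b + c - a - b = c from fun _ _ _ => by ring] at this
  have hs : ∀ c ∈ F₀, ∀ v ∈ R, c • v ∈ R := fun c hc v hv => R.smul_mem ⟨c, hc⟩ hv
  induction j with
  | zero => intro W _ h _; rw [finrank_eq_zero.1 h]; exact plus_bot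
  | succ j ih =>
    intro W hW hd hsp
    have hz : ∀ x ∈ W, (∀ y ∈ R, y ∈ W → S.B x y = 0) → x = 0 := fun x hx h => hW x hx fun y hy =>
      S.B_comm_zero ((S.mem_perp_span.2 fun u hu => h u hu.1 hu.2 : x ∈ S.perp _) y (hsp hy) |> S.B_comm_zero)
    obtain ⟨x, hx, hxW, y, hy, hyW, h⟩ : ∃ x ∈ R, x ∈ W ∧ ∃ y ∈ R, y ∈ W ∧ S.B x x * S.B y y - S.B x y ^ 2 ≠ 0 := by
      by_contra! h
      have h1 : ∀ x ∈ R, x ∈ W → S.B x x = 0 → x = 0 := fun x hx hxW h0 => hz x hxW fun y hy hyW => by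
        simpa [h0] using h x hx hxW y hy hyW
      obtain ⟨x, hx, hxW, h0⟩ : ∃ x ∈ R, x ∈ W ∧ S.B x x ≠ 0 := by
        by_contra! h0
        have : W = ⊥ := le_bot_iff.1 (hsp.trans (span_le.2 fun x hx => h1 x hx.1 hx.2 (h0 x hx.1 hx.2)))
        rw [this, finrank_bot] at hd; omega
      have h2 : W ≤ span F {x} := hsp.trans (span_le.2 fun y hy => by
        have h3 := h1 (y - (S.B x y / S.B x x) • x)
          (R.sub_mem hy.1 (hs _ (div_mem (hB x hx y hy.1) (hB x hx x hx)) x hx)) (W.sub_mem hy.2 (W.smul_mem _ hxW))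
          (by simp [S.orth_B_swap x y]; field_simp; linear_combination h x hx hxW y hy.1 hy.2)
        exact mem_span_singleton.2 ⟨_, (sub_eq_zero.1 h3).symm⟩)
      have := (finrank_mono h2).trans (finrank_span_le_card (R := F) ({x} : Set V))
      simp at this; omega
    obtain ⟨h1, h2, h3⟩ := plane_data h
    have h4 : span F {x, y} ≤ W := span_le.2 (by rintro _ (rfl | rfl) <;> assumption)
    obtain ⟨h5, h6⟩ := h1.inf_perp hW h4
    have h7 := finrank_inf_perp hW h4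
    rw [← h6, Plus.sup_iff (h3.2 ?_) h1 h5 inf_le_right]
    swap
    · by_cases h0 : S.Q x = 0
      · exact ⟨1, 0, by simp, by simpa using h0⟩
      · obtain ⟨t, ht⟩ := exists_root hc (hR x hx) (hB x hx y hy) (hR y hy) h0
        exact ⟨t, 1, by simp, by rw [Q_comb]; linear_combination ht⟩
    refine ih _ h5 (by omega) fun w hw => ?_
    set d := S.B x x * S.B y y - S.B x y ^ 2 with hd
    have hdm : d ∈ F₀ := sub_mem (mul_mem (hB x hx x hx) (hB y hy y hy)) (pow_mem (hB x hx y hy) 2)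
    let π : V →ₗ[F] V := LinearMap.id - ((S.B y y / d) • S.lin x - (S.B x y / d) • S.lin y).smulRight x -
      ((S.B x x / d) • S.lin y - (S.B x y / d) • S.lin x).smulRight y
    have h8 : π w = w := by
      have := S.mem_perp_span.1 hw.2
      simp [π, this x (by simp), this y (by simp)]
    rw [← h8]
    refine mem_comap.1 ((map_le_iff_le_comap (f := π)).1 ?_ (hsp hw.1))
    rw [map_span, span_le]
    rintro _ ⟨r, ⟨hr, hrW⟩, rfl⟩
    refine subset_span ⟨R.sub_mem (R.sub_mem hr (hs _ ?_ x hx)) (hs _ ?_ y hy),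
      W.sub_mem (W.sub_mem hrW (W.smul_mem _ hxW)) (W.smul_mem _ hyW), S.mem_perp_span.2 ?_⟩
    · exact sub_mem (mul_mem (div_mem (hB y hy y hy) hdm) (hB r hr x hx))
        (mul_mem (div_mem (hB x hx y hy) hdm) (hB r hr y hy))
    · exact sub_mem (mul_mem (div_mem (hB x hx x hx) hdm) (hB r hr y hy))
        (mul_mem (div_mem (hB x hx y hy) hdm) (hB r hr x hx))
    · simp only [Set.mem_insert_iff, Set.mem_singleton_iff, forall_eq_or_imp, forall_eq]
      constructor <;> simp [π, S.orth_B_swap x y] <;> field_simp <;> rw [hd] <;> ring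

end

variable {ι : Type} [Fintype ι] [DecidableEq ι] {F : Type*} [Field F] [Fintype F]
variable {S : PQ (FP.orth F) (ι → F)} {κ : Type} [Fintype κ] [DecidableEq κ]

theorem plus_geo {W : Submodule F (ι → F)} (hW : S.NondegOn W) : Plus S W ↔ Geo.IsPlusTypeOn S.Q W := by
  rw [plus_iff hW]; simp only [S.orth_ts]; rfl

theorem isometric_geo {W W' : Submodule F (ι → F)} : Isometric S W W' ↔ Geo.AreIsometricFor S.Q W W' := by
  refine _root_.exists_congr fun e => ⟨fun h w => by simpa [sub_eq_zero] using h.2 w, fun h => ⟨fun x y => ?_, fun w => ?_⟩⟩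
  · have := h (x + y)
    simp only [map_add, coe_add, S.orth_Q_add, h x, h y] at this
    simpa using this
  · simpa [sub_eq_zero] using h w

theorem plus_unitary {K : Subalgebra F (Matrix ι ι F)} (hK : Geo.IsFieldSubalgebra 2 K)
    (ha : Geo.IsAdjointClosedFor S.B K) (hs : ∀ k ∈ K, ∃ c : F, ∀ v, S.Q (k *ᵥ v) = c * S.Q v) (j : ℕ) :
    ∀ W : Submodule F (ι → F), S.NondegOn W → finrank F W = 2 * j → (∀ k ∈ K, ∀ w ∈ W, k *ᵥ w ∈ W) →
      (Plus S W ↔ Even j) := by
  induction j with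
  | zero => intro W _ h _; rw [finrank_eq_zero.1 h]; simp [plus_bot]
  | succ j ih =>
    intro W hW hd hKW
    obtain ⟨v, hv, hv0⟩ := exists_Q_ne_zero hW fun h0 => by rw [h0, finrank_bot] at hd; omega
    have h1 : finrank F (LinearMap.range (actL K v)) = 2 := by
      rw [LinearMap.finrank_range_of_inj (actL_injective hK (by rintro rfl; exact hv0 S.orth_Q_zero)), hK.finrank_eq]
    have h2 : widx S (LinearMap.range (actL K v)) = 0 := widx_eq_zero_iff.2 (by
      rintro _ ⟨k, rfl⟩ h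
      by_contra h0
      obtain ⟨k', hk', h3⟩ := hK.inv k k.2 fun h3 => h0 (by simp [actL_apply, h3])
      obtain ⟨c, hc⟩ := hs k' hk'
      have := hc (actL K v k)
      rw [(S.orth_sing _).1 h, actL_apply, Matrix.mulVec_mulVec, hK.comm _ hk' _ k.2, h3] at this
      exact hv0 (by simpa using this))
    have h3 := nondegOn_of_aniso h2 h1.ge
    have h4 : LinearMap.range (actL K v) ≤ W := by rintro _ ⟨k, rfl⟩; exact hKW k k.2 v hv
    obtain ⟨h5, h6⟩ := h3.inf_perp hW h4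
    have h7 := finrank_inf_perp hW h4
    rw [← h6, plus_sup_iff h3 h5 inf_le_right (h1 ▸ even_two) ⟨j, by omega⟩, ih _ h5 (by omega), Plus, h2, h1,
      Nat.even_add_one]
    · simp
    · rintro k hk w ⟨hw, hw'⟩
      refine ⟨hKW k hk w hw, ?_⟩
      rintro _ ⟨l, rfl⟩
      obtain ⟨k', hk', h⟩ := ha k hk
      rw [h, actL_apply, Matrix.mulVec_mulVec]
      exact hw' _ ⟨⟨_, mul_mem hk' l.2⟩, rfl⟩

theorem plus_top_unitary (hS : S.Nondeg) [Nonempty ι] {K : Subalgebra F (Matrix ι ι F)}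
    (hK : Geo.IsFieldSubalgebra 2 K) (ha : Geo.IsAdjointClosedFor S.B K)
    (hs : ∀ k ∈ K, ∃ c : F, ∀ v, S.Q (k *ᵥ v) = c * S.Q v) : Geo.IsPlusTypeOn S.Q ⊤ ↔ Fintype.card ι % 4 = 0 := by
  obtain ⟨j, hj⟩ := dvd_card_of_field hK
  rw [← plus_geo (S.nondegOn_top.2 hS), plus_unitary hK ha hs j ⊤ (S.nondegOn_top.2 hS) (by simpa using hj)
    fun _ _ _ _ => trivial, Nat.even_iff]
  omega

theorem plus_top_rational (hS : S.Nondeg) (he : Even (Fintype.card ι)) {F₀ : Subfield F}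
    (hc : Fintype.card F = Nat.card F₀ ^ 2) {P : GL ι F} {ζ : F} (hζ : ζ ≠ 0)
    (h : Geo.IsQuadFormRationalStructure (fun v => ζ * S.Q v) F₀ P) : Geo.IsPlusTypeOn S.Q ⊤ := by
  obtain ⟨j, hj⟩ := he
  let R : Submodule F₀ (ι → F) :=
    { carrier := {v | ∃ u : ι → F, (∀ i, u i ∈ F₀) ∧ P.val *ᵥ u = v}
      add_mem' := by
        rintro _ _ ⟨u, hu, rfl⟩ ⟨v, hv, rfl⟩
        exact ⟨u + v, fun i => add_mem (hu i) (hv i), Matrix.mulVec_add _ _ _⟩
      zero_mem' := ⟨0, fun _ => zero_mem _, by simp⟩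
      smul_mem' := by
        rintro c _ ⟨u, hu, rfl⟩
        exact ⟨(c : F) • u, fun i => mul_mem c.2 (hu i), Matrix.mulVec_smul _ _ _⟩ }
  have := plus_of_rational (S := scale ζ S) hc (R := R) (by rintro _ ⟨u, hu, rfl⟩; exact h u hu) j ⊤
    ((PQ.nondegOn_top _).2 (scale_nondeg hζ hS)) (by simp [hj, two_mul]) fun v _ => by
      rw [← mulVec_inv_mulVec P v, pi_eq_sum_univ' (P⁻¹.val *ᵥ v), Matrix.mulVec_sum]
      refine sum_mem fun i _ => ?_
      rw [Matrix.mulVec_smul]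
      exact smul_mem _ _ (subset_span ⟨⟨_, fun k => by
        rw [Pi.single_apply]; split_ifs; exacts [one_mem _, zero_mem _], rfl⟩, trivial⟩)
  rwa [Plus, widx_scale hζ, ← Plus, plus_geo (S.nondegOn_top.2 hS)] at this

theorem HasGram.isSquare_det {Φ Φ' : (κ → F) ≃ₗ[F] (ι → F)} {G G' : Matrix κ κ F} (h : HasGram S Φ G)
    (h' : HasGram S Φ' G') : IsSquare (G.det * G'.det) := by
  obtain ⟨a, ha⟩ := (glEquiv (ι := κ) (F := F)).surjective (Φ'.trans Φ.symm)
  have := h.gl a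
  rw [ha, LinearEquiv.trans_assoc, LinearEquiv.symm_trans_self, LinearEquiv.trans_refl] at this
  rw [← h'.gram_eq, this.gram_eq, show ⇑(FP.orth F).σ = id from rfl, Matrix.map_id, Matrix.det_mul, Matrix.det_mul,
    Matrix.det_transpose]
  exact ⟨G.det * a.val.det, by ring⟩

theorem isSquare_det_of_plus (hS : S.Nondeg) (hp : Geo.IsPlusTypeOn S.Q ⊤) (h4 : Fintype.card ι % 4 = 0)
    {Φ : (κ → F) ≃ₗ[F] (ι → F)} {G : Matrix κ κ F} (h : HasGram S Φ G) : IsSquare G.det := by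
  obtain ⟨m, hm⟩ : ∃ m, Fintype.card ι = 2 * (2 * m) := ⟨Fintype.card ι / 4, by omega⟩
  rw [← plus_geo (S.nondegOn_top.2 hS)] at hp
  obtain ⟨e, he⟩ := iso_of_hyp (quadPQ_nondeg (isNondeg_quadFormPlus (2 * m) F)) hS
    (by simpa [Plus] using H9.FAdapt.plus_oP (F := F) (2 * m)) (by simpa [Plus] using hp) (by simp [hm, two_mul])
  have h1 : HasGram S e (Matrix.fromBlocks 0 1 1 0) := fun x y => by
    rw [he.1]
    simp [polar_quadFormPlus, ofG, Matrix.fromBlocks_mulVec, dotProduct, Finset.sum_add_distrib]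
  have e' := Fintype.equivOfCardEq ((card_eq_of_frame e).symm.trans (card_eq_of_frame Φ))
  have h2 := h.isSquare_det (h1.reindex e')
  rw [Matrix.det_reindex_self, show (Matrix.fromBlocks 0 1 1 0 : Matrix (Fin (2 * m) ⊕ Fin (2 * m)) _ F) =
    Matrix.fromBlocks 1 (-1) 0 1 * Matrix.fromBlocks 1 0 1 (-1) * Matrix.fromBlocks 1 1 0 1 by
      simp [Matrix.fromBlocks_multiply]] at h2
  simpa [Matrix.det_neg] using h2

end Cfsg.Agent.Asch
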