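import Cfsg.Agent.Asch.OrthAux2

/-!
The subgroup structure theorem, orthogonal case.
-/

set_option autoImplicit false
set_option linter.unusedSectionVars false
set_option maxHeartbeats 400000

namespace Cfsg.Agent.Asch

open scoped MatrixGroups Matrix Kronecker commutatorElement
open Form Module

variable {ι : Type} [Fintype ι] [DecidableEq ι] {F : Type*} [Field F] [Fintype F]
variable {κ : Type} [Fintype κ] [DecidableEq κ] {μ : Type} [Fintype μ] [DecidableEq μ]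
variable {S : PQ (FP.orth F) (ι → F)} {H : Subgroup (GL ι F)}

theorem ofG_kron_pure (σ : F →+* F) (A : Matrix κ κ F) (B : Matrix μ μ F) (x x' : κ → F) (y y' : μ → F) :
    ofG σ (A ⊗ₖ B) (fun a => x a.1 * y a.2) (fun a => x' a.1 * y' a.2) = ofG σ A x x' * ofG σ B y y' := by
  simp only [ofG_eq_sum, Fintype.sum_prod_type, Finset.sum_mul_sum, Matrix.kroneckerMap_apply, map_mul]
  refine Finset.sum_congr rfl fun _ _ => Finset.sum_congr rfl fun _ _ => Finset.sum_congr rfl fun _ _ =>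
    Finset.sum_congr rfl fun _ _ => by ring

theorem neg_eq_self_of_two (h2 : (2 : F) = 0) (X : Matrix κ μ F) : -X = X := by
  rw [neg_eq_iff_add_eq_zero, ← two_smul F, h2, zero_smul]

theorem lagr_upper {k : ℕ} {G e : Matrix (Fin k) (Fin k) F} (hG : Gᵀ = G) (hdiag : ∀ i, G i i = 0) (hd : G.det ≠ 0)
    (he : e * e = e) (ha : adjG (RingHom.id F) G e = 1 - e) : (eᵀ * upper G * e)ᵀ = -(eᵀ * upper G * e) := by
  rw [adjG_eq_iff (fun _ => rfl) hd, RingHom.coe_id, Matrix.map_id] at ha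
  rw [eq_neg_iff_add_eq_zero, Matrix.transpose_mul, Matrix.transpose_mul, Matrix.transpose_transpose, ← mul_assoc,
    ← add_mul, ← mul_add, add_comm, upper_add hG hdiag, ha, mul_assoc, sub_mul, he, one_mul, sub_self, mul_zero]

theorem TCore.symp (hS : S.Nondeg) (hH : Irr H) (hI : H ≤ isometryGroup F S.Q) {k l : ℕ} (hk : 2 ≤ k) (hl : 2 ≤ l)
    {Φ : (Fin k × Fin l → F) ≃ₗ[F] (ι → F)} {G₁ : Matrix (Fin k) (Fin k) F} {G₂ : Matrix (Fin l) (Fin l) F}
    {ε₁ ε₂ : F} (h : TCore S H Φ G₁ G₂ ε₁ ε₂) (h1 : G₁ᵀ = -G₁) (h1' : ∀ i, G₁ i i = 0) (h3 : G₂ᵀ = -G₂)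
    (h3' : ∀ i, G₂ i i = 0) :
    (∀ (x : Fin k → F) (y : Fin l → F), S.Q (Φ fun a => x a.1 * y a.2) = 0) ∧ Geo.IsPlusTypeOn S.Q ⊤ := by
  have hQ : (2 : F) = 0 → ∀ x, S.Q (Φ x) = ofG (RingHom.id F) (upper G₁ ⊗ₖ G₂) x x := fun h2 x => by
    rw [(qFix_self hI).unique h2 (by rw [card_eq_of_frame Φ]; simp; nlinarith) hH (h.qFix rfl h2 hH hk hl)]; simp
  constructor
  · intro x y
    by_cases h2 : (2 : F) = 0
    · rw [hQ h2, ofG_kron_pure, ofG_self_eq_zero h3 h3', mul_zero]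
    · refine Q_eq_zero_of_B h2 ((h.gram _ _).trans ?_)
      rw [ofG_kron_pure]; exact mul_eq_zero_of_right _ (ofG_self_eq_zero h3 h3' _)
  obtain ⟨e, he, ha⟩ := exists_lagrangian h1 h1' h.det₁
  refine plus_of_idem hS (E := (tr Φ).symm (kronL _ _ F e)) (by rw [← map_mul, ← map_mul, he]) ?_ fun h2 u => ?_
  · rw [← map_one (tr Φ).symm, ← map_one (kronL _ _ F), ← map_sub, ← map_sub, AlgEquiv.eq_symm_apply,
      h.gram.tr_adj hS, AlgEquiv.apply_symm_apply, kronL_apply, kronL_apply, adjG_kron (fun _ => rfl) h.det₁ h.det₂,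
      adjG_one' (fun _ => rfl) h.det₂, ← ha]; rfl
  · obtain ⟨x, rfl⟩ := Φ.surjective u
    rw [tr_symm_mulVec, hQ h2, ofG_mulVec, RingHom.coe_id, Matrix.map_id, kronL_apply, kron_transpose,
      ← Matrix.mul_kronecker_mul, ← Matrix.mul_kronecker_mul]
    refine ofG_self_eq_zero ?_ (fun i => by simp [h3']) _
    rw [neg_eq_self_of_two h2] at h1 h3
    rw [kron_transpose, lagr_upper h1 h1' h.det₁ he ha, neg_eq_self_of_two h2, neg_eq_self_of_two h2]
    simp [h3]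

theorem WCore.plus (hS : S.Nondeg) (hH : Irr H) (hI : H ≤ isometryGroup F S.Q) (hn : 2 ≤ Fintype.card ι) {k t : ℕ}
    {Φ : ((Fin t → Fin k) → F) ≃ₗ[F] (ι → F)} {P₁ : Subgroup (GL (Fin k) F)} (hW : WCore H Φ P₁)
    {G₁ : Matrix (Fin k) (Fin k) F} {c ε₁ : F} (h : PCore S H Φ G₁ c ε₁)
    (hfix : ∀ y ∈ P₁, y.valᵀ * G₁ * y.val.map (FP.orth F).σ = G₁) (h1 : G₁ᵀ = -G₁) (h1' : ∀ i, G₁ i i = 0) :
    Geo.IsPlusTypeOn S.Q ⊤ := by
  have := h.two_le_t
  let i : Fin t := ⟨0, by omega⟩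
  obtain ⟨e, he, ha⟩ := exists_lagrangian h1 h1' h.det
  refine plus_of_idem hS (E := (tr Φ).symm (emb i e)) (by rw [← map_mul, ← map_mul, he]) ?_ fun h2 u => ?_
  · rw [h.tr_adj hS, ← map_one (tr Φ).symm, ← map_one (emb i), ← map_sub, ← map_sub, ← ha]; rfl
  · obtain ⟨x, rfl⟩ := Φ.surjective u
    rw [neg_eq_self_of_two h2] at h1
    rw [tr_symm_mulVec, (qFix_self hI).unique h2 hn hH (hW.qFix rfl h2 (hI.trans iso_le_IsoB) hn h hfix i),
      LinearEquiv.symm_apply_apply, ofG_mulVec, RingHom.coe_id, Matrix.map_id, emb_transpose, Matrix.mul_smul,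
      Matrix.smul_mul, emb_mul_pt, pt_mul_emb, Function.update_idem, Function.update_idem, Function.update_self,
      Function.update_self]
    refine ofG_self_eq_zero ?_ (fun x => ?_) _
    · rw [Matrix.transpose_smul, pt_update_transpose h1, lagr_upper h1 h1' h.det he ha, neg_eq_self_of_two h2,
        neg_eq_self_of_two h2]
    · have : Nontrivial (Fin t) := Fin.nontrivial_iff_two_le.2 h.two_le_t
      obtain ⟨j, hj⟩ := exists_ne i
      rw [Matrix.smul_apply, pt_update, Finset.prod_eq_zero (Finset.mem_erase.2 ⟨hj, Finset.mem_univ _⟩) (h1' _)]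
      simp

/-- the alternatives in the orthogonal case -/
inductive OrthCase (S : PQ (FP.orth F) (ι → F)) (H : Subgroup (GL ι F)) : Prop
  | c1s (W : Submodule F (ι → F)) : W ≠ ⊥ → Geo.IsTotallySingularQuad S.Q W → H ≤ Geo.subspaceStabilizer W →
      OrthCase S H
  | c1n (W : Submodule F (ι → F)) : W ≠ ⊥ → W ≠ ⊤ → Geo.IsNondegenerateOn S.B W →
      2 * finrank F W ≤ Fintype.card ι → H ≤ Geo.subspaceStabilizer W → OrthCase S H
  | c1p (v : ι → F) : (2 : F) = 0 → S.Q v ≠ 0 → H ≤ Geo.subspaceStabilizer (F ∙ v) → OrthCase S H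
  | c2n (t k : ℕ) (D : Fin t → Submodule F (ι → F)) : Irr H →
      (1 < k ∨ k = 1 ∧ (Fintype.card F).Prime ∧ Odd (Fintype.card F)) → Geo.IsOrthogonalMDecomposition S.Q k D →
      H ≤ Geo.decompositionStabilizer D → OrthCase S H
  | c2s (k : ℕ) (D : Fin 2 → Submodule F (ι → F)) : Irr H → Geo.IsMDecomposition k D →
      (∀ i, Geo.IsTotallySingularQuad S.Q (D i)) → H ≤ Geo.decompositionStabilizer D → OrthCase S H
  | c3s (r : ℕ) (K : Subalgebra F (Matrix ι ι F)) : Irr H → r.Prime → r ≠ Fintype.card ι →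
      Geo.IsFieldSubalgebra r K → Geo.IsSelfAdjointFor S.B K → ((2 : F) = 0 → ∀ k ∈ K, ∀ v, S.B (k *ᵥ v) v = 0) →
      H ≤ Geo.subalgebraNormalizer K → OrthCase S H
  | c3u (K : Subalgebra F (Matrix ι ι F)) : Irr H → Geo.IsFieldSubalgebra 2 K → Geo.IsAdjointClosedFor S.B K →
      ¬ Geo.IsSelfAdjointFor S.B K → (∀ k ∈ K, ∃ c : F, ∀ v, S.Q (k *ᵥ v) = c * S.Q v) →
      H ≤ Geo.subalgebraNormalizer K → OrthCase S H
  | c4o (n₁ n₂ : ℕ) (e : ι ≃ Fin n₁ × Fin n₂) (P : GL ι F) (f₁ : (Fin n₁ → F) → (Fin n₁ → F) → F)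
      (f₂ : (Fin n₂ → F) → (Fin n₂ → F) → F) : Irr H → NoComm S H → Odd (Fintype.card F) → 3 ≤ n₁ → n₁ ≤ n₂ →
      (n₁ = n₂ → Even n₁) → ¬ (Fintype.card F = 3 ∧ n₁ = 3) → Geo.IsSymmetricForm f₁ → Geo.IsSymmetricForm f₂ →
      Geo.IsTensorFormStructure id S.B f₁ f₂ e P → H ≤ Geo.tensorProductSubgroup n₁ n₂ e P → OrthCase S H
  | c4s (n₁ n₂ : ℕ) (e : ι ≃ Fin n₁ × Fin n₂) (P : GL ι F) (f₁ : (Fin n₁ → F) → (Fin n₁ → F) → F)
      (f₂ : (Fin n₂ → F) → (Fin n₂ → F) → F) : Irr H → 2 ≤ n₁ → n₁ ≤ n₂ → ¬ (Fintype.card F = 2 ∧ n₁ = 2) →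
      Geo.IsSymplecticForm f₁ → Geo.IsSymplecticForm f₂ → Geo.IsTensorFormStructure id S.B f₁ f₂ e P →
      (∀ (x₁ : Fin n₁ → F) (x₂ : Fin n₂ → F), S.Q (P.val *ᵥ ((fun a : Fin n₁ × Fin n₂ => x₁ a.1 * x₂ a.2) ∘ e)) = 0) →
      Geo.IsPlusTypeOn S.Q ⊤ → H ≤ Geo.tensorProductSubgroup n₁ n₂ e P → OrthCase S H
  | c5 (F₀ : Subfield F) (r : ℕ) (P : GL ι F) (ζ : F) : Irr H → r.Prime → Fintype.card F = Nat.card F₀ ^ r → ζ ≠ 0 →
      Geo.IsQuadFormRationalStructure (fun v => ζ * S.Q v) F₀ P → H ≤ Geo.subfieldSubgroup F₀ P → OrthCase S H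
  | c67 (k t : ℕ) : 2 ≤ k → 2 ≤ t → Even k → Fintype.card ι = k ^ t → Geo.IsPlusTypeOn S.Q ⊤ → OrthCase S H
  | c7 (k t : ℕ) (e : ι ≃ (Fin t → Fin k)) (P : GL ι F) (f₁ : (Fin k → F) → (Fin k → F) → F) : Irr H →
      Odd (Fintype.card F) → 3 ≤ k → 2 ≤ t → ¬ (Fintype.card F = 3 ∧ k = 3) → Geo.IsSymmetricForm f₁ →
      Geo.IsTensorPowerFormStructure id S.B f₁ e P → H ≤ Geo.tensorWreathSubgroup k t e P → OrthCase S H
  | res : Geo.InOrthogonalResidualClass H → OrthCase S H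

theorem OrthCase.of_subCore (hS : S.Nondeg) (hn : 2 ≤ Fintype.card ι) (hH : Irr H) (hI : H ≤ isometryGroup F S.Q)
    {F₁ : Subfield F} {r : ℕ} {P' : GL ι F} {G : Matrix ι ι F} {ζ : F} (h : SubCore S H F₁ r P' G ζ) : OrthCase S H :=
  .c5 F₁ r P' ζ hH h.prime h.card h.ne (h.quad hS hn hH hI) h.le

theorem OrthCase.of_group (hS : S.Nondeg) (hn : 2 ≤ Fintype.card ι) (hH : Irr H) (hI : H ≤ isometryGroup F S.Q)
    {R : Subgroup (GL ι F)} (hR : Full (Geo.matrixSet R)) (hN : NormsG H R) (hRI : R ≤ IsoB S) {F₀ : Subfield F}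
    (hF : F₀ ≠ ⊤) (htr : ∀ s ∈ Geo.matrixSet R, s.trace ∈ F₀) : OrthCase S H := by
  have : Nonempty ι := Fintype.card_pos_iff.1 (by omega)
  obtain ⟨F₁, r, P', G, ζ, -, h⟩ := exists_subCore_of_group hS hR hN hRI hF htr
  exact .of_subCore hS hn hH hI h

theorem OrthCase.of_pcore (hS : S.Nondeg) (h2 : (2 : F) ≠ 0) (hH : Irr H) (hc : NoComm S H) {k t : ℕ}
    {Φ : ((Fin t → Fin k) → F) ≃ₗ[F] (ι → F)} {G₁ : Matrix (Fin k) (Fin k) F} {c ε₁ : F} (h : PCore S H Φ G₁ c ε₁)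
    (h1 : G₁ᵀ = G₁) : OrthCase S H := by
  have hb := h.not_bad hS hc
  obtain ⟨e, P', rfl⟩ := exists_fr' Φ
  have := h.powerForm one_ne_zero
  rw [one_smul] at this
  refine .c7 k t e P' _ hH (odd_card_iff.2 h2) (h.two_le_k.lt_of_ne ?_) h.two_le_t ?_ (isSymmetricForm_ofG h1 h.det)
    this h.le_wreath
  · rintro rfl; exact hb (bad_symm_two h2 h1 h.det)
  · rintro ⟨hq, rfl⟩; exact hb (bad_three_three hq h1 h.det)

theorem OrthCase.of_tcore (hS : S.Nondeg) (hH : Irr H) (hI : H ≤ isometryGroup F S.Q) (hc : NoComm S H) {k l : ℕ}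
    (hk : 2 ≤ k) (hl : k ≤ l) {Φ : (Fin k × Fin l → F) ≃ₗ[F] (ι → F)} {G₁ : Matrix (Fin k) (Fin k) F}
    {G₂ : Matrix (Fin l) (Fin l) F} {ε₁ ε₂ : F} (h : TCore S H Φ G₁ G₂ ε₁ ε₂) : OrthCase S H := by
  have : Nonempty (Fin k) := ⟨⟨0, by omega⟩⟩
  have : Nonempty (Fin l) := ⟨⟨0, by omega⟩⟩
  have hb := h.not_bad hS hc
  have hsymp : G₁ᵀ = -G₁ → (∀ i, G₁ i i = 0) → G₂ᵀ = -G₂ → (∀ i, G₂ i i = 0) → OrthCase S H := by
    intro h1 h1' h3 h3'
    obtain ⟨h4, h5⟩ := h.symp hS hH hI hk (hk.trans hl) h1 h1' h3 h3'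
    obtain ⟨e, P', rfl⟩ := exists_fr' Φ
    have := h.tensorForm one_ne_zero one_ne_zero
    rw [one_smul, one_smul] at this
    refine .c4s k l e P' _ _ hH hk hl ?_ (isSymplecticForm_ofG h1 h1' h.det₁) (isSymplecticForm_ofG h3 h3' h.det₂)
      this h4 h5 h.le_tensor
    rintro ⟨hq, rfl⟩; exact hb (bad_two_two hq h.det₁)
  by_cases h2 : (2 : F) = 0
  · obtain ⟨h3, h4⟩ := h.alt rfl h2 hH (by simpa using hk)
    obtain ⟨h5, h6⟩ := h.swap.alt rfl h2 hH (by simpa using hk.trans hl)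
    exact hsymp (by rw [h3, neg_eq_self_of_two h2]) h4 (by rw [h5, neg_eq_self_of_two h2]) h6
  have h3 := h.mul
  rcases mul_self_eq_one_iff.1 (herm_scalar (fun _ => rfl) (ne_zero_of_det h.det₁) h.herm₁) with rfl | rfl
  swap
  · obtain rfl : ε₂ = -1 := by simpa [neg_eq_iff_eq_neg] using h3
    have h4 : G₁ᵀ = -G₁ := by simpa [FP.orth] using h.herm₁
    have h5 : G₂ᵀ = -G₂ := by simpa [FP.orth] using h.herm₂
    exact hsymp h4 (diag_eq_zero_of_skew h2 h4) h5 (diag_eq_zero_of_skew h2 h5)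
  obtain rfl : ε₂ = 1 := by simpa using h3
  have h4 : G₁ᵀ = G₁ := by simpa [FP.orth] using h.herm₁
  have h5 : G₂ᵀ = G₂ := by simpa [FP.orth] using h.herm₂
  by_cases h6 : k = l → Even k
  · obtain ⟨e, P', rfl⟩ := exists_fr' Φ
    have := h.tensorForm one_ne_zero one_ne_zero
    rw [one_smul, one_smul] at this
    refine .c4o k l e P' _ _ hH hc (odd_card_iff.2 h2) (hk.lt_of_ne ?_) hl h6 ?_ (isSymmetricForm_ofG h4 h.det₁)
      (isSymmetricForm_ofG h5 h.det₂) this h.le_tensor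
    · rintro rfl; exact hb (bad_symm_two h2 h4 h.det₁)
    · rintro ⟨hq, rfl⟩; exact hb (bad_three_three hq h4 h.det₁)
  · rw [Classical.not_imp, Nat.not_even_iff_odd] at h6
    obtain ⟨rfl, h6⟩ := h6
    obtain ⟨a, d, hd, ha⟩ := exists_similar h2 h6 h5 h4 h.det₂ h.det₁
    obtain ⟨Φ', ε₁, ε₂, h'⟩ := h.gl₂ (hI.trans iso_le_IsoB) a
    rw [show ⇑(FP.orth F).σ = id from rfl, Matrix.map_id, ha] at h'
    exact .of_pcore hS h2 hH hc (h'.pcore hS hH (hI.trans iso_le_IsoB) hk hd) h4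

theorem orthCase (hS : S.Nondeg) (hn : 3 ≤ Fintype.card ι) (hI : H ≤ isometryGroup F S.Q) : OrthCase S H := by
  have : Nonempty ι := Fintype.card_pos_iff.1 (by omega)
  have hn' : 2 ≤ Fintype.card ι := by omega
  have hI' := hI.trans iso_le_IsoB
  by_cases hH : Irr H
  swap
  · obtain ⟨W, h1, h2, h3, h4⟩ := exists_min_invariant hH
    rcases nondeg_or_ti hI' h3 h4 with h5 | h5
    · have hd := hS.finrank_perp W
      rw [finrank_pi] at hd
      by_cases h6 : 2 * finrank F W ≤ Fintype.card ι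
      · exact .c1n W h1 h2 ((S.nondegOn_iff_geo W).1 h5) h6 (le_subspaceStabilizer h3)
      · exact .c1n (S.perp W) (fun h0 => h2 (by rw [← hS.perp_perp W, h0, S.perp_bot]))
          (fun h0 => h1 (by rw [← hS.perp_perp W, h0, hS.perp_top])) ((S.nondegOn_iff_geo _).1 (h5.perp hS))
          (by omega) (le_subspaceStabilizer (perp_invariant hI' h3))
    · rcases ts_or_point hI h1 h3 h4 h5 with h6 | ⟨h6, v, h7, rfl⟩
      · exact .c1s W h1 h6 (le_subspaceStabilizer h3)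
      · exact .c1p v h6 h7 (le_subspaceStabilizer h3)
  by_cases hc : NoComm S H
  swap
  · rw [NoComm] at hc
    push Not at hc
    obtain ⟨C, h1, h2, h3, h4⟩ := hc
    rcases comm_exit hS hH hI' h1 h2 h3 h4 with ⟨t, e, he, he'⟩ | ⟨e, he, he'⟩ | ⟨r, K, hr, hK, hK1, hK2⟩
    · obtain ⟨m, hm⟩ := he.orthogonal hS hH hI he'
      rcases (Nat.succ_le_of_lt hm.decomp.decomp.pos).lt_or_eq with h5 | rfl
      · exact .c2n t m _ hH (Or.inl h5) hm he.le_stab
      rcases bot_ne_top_or (F := F) with hp | hp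
      · obtain ⟨v, -, hv⟩ := two_ne_zero_of_lines hm ⟨0, by have := he.two_le; omega⟩
        exact .c2n t 1 _ hH (Or.inr ⟨rfl, hp, odd_card_iff.2 fun h2 => hv (orth_alt h2 v)⟩) hm he.le_stab
      · obtain ⟨F₁, r, -, hr, hc⟩ := exists_prime_index hp
        obtain ⟨P', G, ζ, h⟩ := subCore_of_lines hI hm he.le_stab hr hc
        exact .of_subCore hS hn' hH hI h
    · obtain ⟨m, hm⟩ := he.isMDecomposition hH
      exact .c2s m _ hH hm (ts_of_pair hS hn' hH hI he he') he.le_stab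
    · rcases selfAdj_or_two hS (fun _ => rfl) hr hK hK2 with h5 | ⟨rfl, h5, h6⟩
      · refine .c3s r K hH hr ?_ hK ((selfAdj_iff hS).2 h5) (fun h2 => selfAdj_alt rfl hS (orth_alt h2) hn
          (even_of_char_two h2 hS) hH hI' hr hK hK1 h5) hK1.le_subalgebraNormalizer
        rintro rfl
        have ho := hr.odd_of_ne_two (by omega)
        exact selfAdj_ne rfl (fun h2 => Nat.not_even_iff_odd.2 ho (even_of_char_two h2 hS)) hS hn' ho hH hI' hK hK1 h5
      · refine .c3u K hH hK (hK2.geo hS) (fun h0 => ?_) (sim_of_unitary hS hn' hH hI hK.comm hK1 hK2 h5 h6)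
          hK1.le_subalgebraNormalizer
        obtain ⟨k, hk, hk'⟩ := h5
        exact hk' ((selfAdj_iff hS).1 h0 k hk)
  rcases prim_or_tcore hS hH hI' hc with hP | ⟨k, l, hk, hl, Φ, G₁, G₂, ε₁, ε₂, h⟩
  swap
  · rcases le_total k l with hkl | hkl
    · exact .of_tcore hS hH hI hc hk hkl h
    · exact .of_tcore hS hH hI hc hl hkl h.swap
  rcases exists_core (hH.not_le_scalars hn') with ⟨M, r, hM⟩ | ⟨P, hQ⟩
  · obtain ⟨h2, m, hR, -⟩ := hM.es_bilin rfl hS hI' le_rfl hP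
    refine .c67 2 m le_rfl ?_ even_two hR.card_ι (hR.plus hS hn' h2 hc inf_le_right)
    have h3 := hR.card_ι
    have h4 := hR.one_le
    rcases h4.lt_or_eq with h4 | rfl <;> omega
  by_cases hnP : NormsG H P
  · have hfull := (hP P (hQ.le.trans le_sup_left) hnP).resolve_left hQ.not_le
    have hPI := hQ.le.trans hI'
    by_contra hcon
    refine hcon (.res ⟨P, hQ.residual hnP hfull fun F₀ hF htr => hcon (.of_group hS hn' hH hI hfull hnP hPI hF ?_), ?_⟩)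
    · rintro _ ⟨x, hx, rfl⟩; exact htr x hx
    · rintro ⟨σ, f, hf, hfix⟩
      exact hcon (.of_group hS hn' hH hI hfull hnP hPI (fixSub_ne_top _ (unit_ne hf)) (trace_mem_fixSub (unit_invol hf)
        (sesq_B S) (nondeg_B hS) (sesq_of_unitary hf) hf.nondegenerate (fixesForm_of_le hPI) hfix))
  · obtain ⟨k, t, Φ, P₁, hW⟩ := hQ.exists_wcore hP hnP
    obtain ⟨G₁, c, ε₁, h, hfix⟩ := hW.exists_pcore hS hI'
    have hsymp : G₁ᵀ = -G₁ → (∀ i, G₁ i i = 0) → OrthCase S H := fun h1 h1' =>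
      .c67 k t h.two_le_k h.two_le_t (by simpa using even_card_of_symplectic (isSymplecticForm_ofG h1 h1' h.det))
        h.card (hW.plus hS hH hI hn' h hfix h1 h1')
    by_cases h2 : (2 : F) = 0
    · obtain ⟨h3, h4⟩ := h.alt rfl h2
      exact hsymp (by rw [h3, neg_eq_self_of_two h2]) h4
    have : Nonempty (Fin k) := ⟨⟨0, by have := h.two_le_k; omega⟩⟩
    rcases mul_self_eq_one_iff.1 (herm_scalar (fun _ => rfl) (ne_zero_of_det h.det) h.herm) with rfl | rfl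
    · exact .of_pcore hS h2 hH hc h (by simpa [FP.orth] using h.herm)
    · have h1 : G₁ᵀ = -G₁ := by simpa [FP.orth] using h.herm
      exact hsymp h1 (diag_eq_zero_of_skew h2 h1)

/-- in odd dimension the scalar of a subfield structure can be removed -/
theorem exists_rational_one (hS : S.Nondeg) (ho : Odd (Fintype.card ι)) {F₀ : Subfield F} {r : ℕ} (hr : r.Prime)
    (hc : Fintype.card F = Nat.card F₀ ^ r) (hG : Over F₀ (Geo.gramMatrix S.B)) {P : GL ι F} {ζ : F} (hζ : ζ ≠ 0)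
    (h : Geo.IsQuadFormRationalStructure (fun v => ζ * S.Q v) F₀ P) :
    ∃ P', Geo.IsQuadFormRationalStructure S.Q F₀ P' ∧ Geo.subfieldSubgroup F₀ P' = Geo.subfieldSubgroup F₀ P := by
  obtain ⟨l, hl, hl'⟩ : ∃ l : F, l ≠ 0 ∧ ζ⁻¹ * l ^ 2 ∈ F₀ := by
    rcases hr.eq_two_or_odd' with rfl | hr
    swap
    · exact exists_mul_sq_mem hr hc (inv_ne_zero hζ)
    have h1 : Over F₀ (ζ • (P.valᵀ * Geo.gramMatrix S.B * P.val)) := fun i j => by
      have h0 : ∀ i k : ι, (Pi.single i 1 : ι → F) k ∈ F₀ := fun i k => by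
        rw [Pi.single_apply]; split_ifs; exacts [one_mem _, zero_mem _]
      have := sub_mem (sub_mem (h (Pi.single i 1 + Pi.single j 1) fun k => add_mem (h0 i k) (h0 j k)) (h _ (h0 i)))
        (h _ (h0 j))
      simp only [Matrix.mulVec_add, S.orth_Q_add] at this
      rw [B_eq, ofG_mulVec, ofG_single, show ⇑(FP.orth F).σ = id from rfl, Matrix.map_id] at this
      convert this using 1
      rw [Matrix.smul_apply, smul_eq_mul]; ring
    obtain ⟨a, ha⟩ := isSquare_of_mem hc h1.det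
    obtain ⟨b, hb⟩ := isSquare_of_mem hc hG.det
    obtain ⟨j, hj⟩ := ho
    rw [Matrix.det_smul, Matrix.det_mul, Matrix.det_mul, Matrix.det_transpose, hb, hj] at ha
    have hb0 : b ≠ 0 := fun h0 => gram_det hS (by rw [hb, h0, mul_zero])
    have hP := P.det_ne_zero
    have h3 : (a / (ζ ^ j * P.val.det * b)) ^ 2 = ζ := by field_simp; linear_combination -ha
    generalize a / (ζ ^ j * P.val.det * b) = l at h3
    exact ⟨l, fun h0 => hζ (by rw [← h3, h0]; simp), by rw [h3, inv_mul_cancel₀ hζ]; exact one_mem _⟩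
  refine ⟨P * sc ι (Units.mk0 l hl), fun u hu => ?_, subfieldSubgroup_mul_sc _ _ _⟩
  convert mul_mem hl' (h u hu) using 1
  simp [Matrix.smul_mulVec, S.orth_Q_smul]; field_simp

theorem over_gram_quadFormOdd (m : ℕ) (F₀ : Subfield F) :
    Over F₀ (Geo.gramMatrix (QuadraticMap.polar (quadFormOdd m F))) := fun i j => by
  have h0 : ∀ i k : Unit ⊕ (Fin m ⊕ Fin m), (Pi.single i 1 : _ → F) k ∈ F₀ := fun i k => by
    rw [Pi.single_apply]; split_ifs; exacts [one_mem _, zero_mem _]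
  rw [Geo.gramMatrix, polar_quadFormOdd]
  exact add_mem (mul_mem (mul_mem (natCast_mem F₀ 2) (h0 _ _)) (h0 _ _))
    (sum_mem fun _ _ => add_mem (mul_mem (h0 _ _) (h0 _ _)) (mul_mem (h0 _ _) (h0 _ _)))

end Cfsg.Agent.Asch
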