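import Cfsg.Agent.Asch.OrthAux

/-!
Auxiliary results for the orthogonal case, second part.
-/

set_option autoImplicit false
set_option linter.unusedSectionVars false
set_option maxHeartbeats 400000

namespace Cfsg.Agent.Asch

open scoped MatrixGroups Matrix Kronecker commutatorElement
open Form Module

variable {ι : Type} [Fintype ι] [DecidableEq ι] {F : Type*} [Field F] [Fintype F]
variable {κ : Type} [Fintype κ] [DecidableEq κ] {μ : Type} [Fintype μ] [DecidableEq μ]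

section general
variable {P : FP F} {S : PQ P (ι → F)} {H : Subgroup (GL ι F)}

theorem subCore_of_frame {Φ : (κ → F) ≃ₗ[F] (ι → F)} {G : Matrix κ κ F} (hG : HasGram S Φ G) {F₁ : Subfield F} {r : ℕ}
    (hr : r.Prime) (hc : Fintype.card F = Nat.card F₁ ^ r) {ζ : F} (hζ : ζ ≠ 0) (ho : Over F₁ (ζ • G))
    (h : ∀ g ∈ H, Over F₁ (tr Φ g.val)) : ∃ P' G', SubCore S H F₁ r P' G' ζ := by
  obtain ⟨e, P', rfl⟩ := exists_fr' Φ
  refine ⟨P', Matrix.reindex e.symm e.symm G, hr, hc, fun g hg => (mem_subfieldSubgroup_iff _ _ _).2 ⟨1, fun i j => ?_⟩,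
    ?_, hζ, fun i j => ho _ _⟩
  · simpa [tr_fr] using h g hg (e i) (e j)
  · convert hG.reindex e.symm using 1
    ext x : 1
    simp only [glEquiv_apply, LinearEquiv.trans_apply, fr_apply]
    congr 1; ext i; simp [frE]

/-- Schur's lemma -/
theorem Irr.eq_zero_or (hH : Irr H) {X : Matrix ι ι F} (h : ∀ g ∈ H, X * g.val = g.val * X) : X = 0 ∨ X.det ≠ 0 := by
  rcases hH (LinearMap.ker (Matrix.toLin' X)) (fun g hg v hv => by
    rw [LinearMap.mem_ker, Matrix.toLin'_apply] at hv ⊢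
    rw [Matrix.mulVec_mulVec, h g hg, ← Matrix.mulVec_mulVec, hv, Matrix.mulVec_zero]) with h0 | h0
  · refine Or.inr fun hd => ?_
    obtain ⟨v, hv, hv'⟩ := Matrix.exists_mulVec_eq_zero_iff.2 hd
    exact hv (h0.le hv')
  · exact Or.inl (mat_ext fun v => by simpa using h0.ge (Submodule.mem_top (x := v)))

theorem det_adj (hσ : P.σ = RingHom.id F) (hS : S.Nondeg) (X : Matrix ι ι F) : (adj S X).det = X.det := by
  have := congrArg Matrix.det (mul_adjG P.σσ (gram_det hS) X)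
  rw [← adj, hσ] at this
  simp only [RingHom.coe_id, Matrix.map_id, Matrix.det_mul, Matrix.det_transpose] at this
  exact mul_left_cancel₀ (gram_det hS) (this.trans (mul_comm _ _))

theorem field_mulVec_injective {r : ℕ} {K : Subalgebra F (Matrix ι ι F)} (hK : Geo.IsFieldSubalgebra r K) {v : ι → F}
    (hv : v ≠ 0) {k : Matrix ι ι F} (hk : k ∈ K) (h : k *ᵥ v = 0) : k = 0 := by
  by_contra h0
  obtain ⟨y, hy, h1⟩ := hK.inv k hk h0
  apply hv
  rw [← Matrix.one_mulVec v, ← h1, hK.comm k hk y hy, ← Matrix.mulVec_mulVec, h, Matrix.mulVec_zero]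

/-- the map `k ↦ k v` -/
def actL (K : Subalgebra F (Matrix ι ι F)) (v : ι → F) : K →ₗ[F] (ι → F) :=
  (Matrix.mulVecBilin F F).flip v ∘ₗ K.val.toLinearMap

theorem actL_apply (K : Subalgebra F (Matrix ι ι F)) (v : ι → F) (k : K) : actL K v k = k.val *ᵥ v := rfl

theorem actL_injective {r : ℕ} {K : Subalgebra F (Matrix ι ι F)} (hK : Geo.IsFieldSubalgebra r K) {v : ι → F}
    (hv : v ≠ 0) : Function.Injective (actL K v) :=
  (injective_iff_map_eq_zero _).2 fun k hk => Subtype.ext (field_mulVec_injective hK hv k.2 hk)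

theorem cj_comm_of_field [Nonempty ι] {r : ℕ} {K : Subalgebra F (Matrix ι ι F)} (hK : Geo.IsFieldSubalgebra r K)
    (hn : Norms H K) {g h : GL ι F} (hg : g ∈ H) (hh : h ∈ H) {k : Matrix ι ι F} (hk : k ∈ K) :
    cj ⁅g, h⁆ k = k := by
  letI := fieldOf K hK.comm hK.inv
  let α : H → Gal(K/F) := fun g => AlgEquiv.ofBijective (((cj g.val).toAlgHom.comp K.val).codRestrict K
    fun x => hn g g.2 x x.2) (Finite.injective_iff_bijective.1 (RingHom.injective _))
  have h1 : ∀ g h : H, ∀ k ∈ K, cj g.val (cj h.val k) = cj h.val (cj g.val k) := fun g h k hk =>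
    congrArg Subtype.val (AlgEquiv.congr_fun (IsCyclic.isMulCommutative.is_comm.comm (α g) (α h)) ⟨k, hk⟩)
  rw [commutatorElement_def, cj_mul, cj_mul, cj_mul, h1 ⟨g, hg⟩ ⟨h, hh⟩ _ (hn _ (inv_mem hg) _ (hn _ (inv_mem hh) _ hk))]
  simp

/-- a self-adjoint field has degree smaller than the (odd) dimension -/
theorem selfAdj_ne (hσ : P.σ = RingHom.id F) (h2 : (2 : F) ≠ 0) (hS : S.Nondeg) (hn : 2 ≤ Fintype.card ι)
    (ho : Odd (Fintype.card ι)) (hH : Irr H) (hI : H ≤ IsoB S) {K : Subalgebra F (Matrix ι ι F)}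
    (hK : Geo.IsFieldSubalgebra (Fintype.card ι) K) (hn' : Norms H K) (ha : ∀ k ∈ K, adj S k = k) : False := by
  have : Nonempty ι := Fintype.card_pos_iff.1 (by omega)
  have hsq : ∀ X : Matrix ι ι F, X * X = 1 → (X - 1 = 0 ∨ (X - 1).det ≠ 0) → (X + 1 = 0 ∨ (X + 1).det ≠ 0) →
      X = 1 ∨ X = -1 := fun X h0 h1 h3 => by
    rcases h1 with h1 | h1
    · exact Or.inl (sub_eq_zero.1 h1)
    rcases h3 with h3 | h3
    · exact Or.inr (add_eq_zero_iff_eq_neg.1 h3)
    refine absurd ?_ (mul_ne_zero h1 h3)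
    rw [← Matrix.det_mul, mul_add, sub_mul, h0]; simp
  have hdet : ∀ k ∈ K, k = 0 ∨ k.det ≠ 0 := fun k hk => or_iff_not_imp_left.2 fun h0 => by
    obtain ⟨y, -, h1⟩ := hK.inv k hk h0
    exact Matrix.det_ne_zero_of_right_inverse h1
  have hcomm : ∀ g ∈ H, ∀ h ∈ H, g * h = h * g := fun g hg h hh => by
    obtain ⟨i⟩ := ‹Nonempty ι›
    have hv : (Pi.single i 1 : ι → F) ≠ 0 := by simp
    have hsurj := (LinearMap.injective_iff_surjective_of_finrank_eq_finrank (by rw [hK.finrank_eq, finrank_pi])).1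
      (actL_injective hK hv)
    have hc : ⁅g, h⁆ ∈ H := commutatorElement_def g h ▸ mul_mem (mul_mem (mul_mem hg hh) (inv_mem hg)) (inv_mem hh)
    obtain ⟨k, hk⟩ := hsurj (⁅g, h⁆.val *ᵥ Pi.single i 1)
    have h1 : ⁅g, h⁆.val = k := mat_ext fun w => by
      obtain ⟨k', rfl⟩ := hsurj w
      rw [actL_apply] at hk ⊢
      rw [← cj_mulVec, cj_comm_of_field hK hn' hg hh k'.2, ← hk, Matrix.mulVec_mulVec, Matrix.mulVec_mulVec,
        hK.comm _ k.2 _ k'.2]
    have h3 : k.val * k.val = 1 := by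
      conv_lhs => rhs; rw [← ha k k.2, ← h1, adj_iso hS (hI hc)]
      rw [← h1, Units.mul_inv]
    rw [← commutatorElement_eq_one_iff_mul_comm]
    rcases hsq _ h3 (hdet _ (sub_mem k.2 (one_mem _))) (hdet _ (add_mem k.2 (one_mem _))) with h4 | h4
    · exact Units.ext (h1.trans h4)
    · have h5 : (⁅g, h⁆.val).det = 1 := by
        rw [← Matrix.GeneralLinearGroup.val_det_apply, map_commutatorElement,
          commutatorElement_eq_one_iff_mul_comm.2 (mul_comm _ _), Units.val_one]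
      rw [h1, h4, Matrix.det_neg, ho.neg_one_pow] at h5
      exact absurd (by simp at h5; linear_combination -h5) h2
  refine hH.not_le_scalars hn fun g hg => (mem_scalars_iff g).2 ?_
  have hc : ∀ h ∈ H, g.val * h.val = h.val * g.val := fun h hh => congrArg Units.val (hcomm g hg h hh)
  have h1 : g.val - (g⁻¹).val = 0 := (hH.eq_zero_or fun h hh => by
    rw [sub_mul, mul_sub, hc h hh, ← Units.val_mul g⁻¹, hcomm _ (inv_mem hg) h hh, Units.val_mul]).resolve_right
    fun h0 => h0 (by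
      have := det_adj hσ hS (g.val - (g⁻¹).val)
      rw [adj_sub hS, adj_iso hS (hI hg), adj_iso hS (hI (inv_mem hg)), inv_inv, ← neg_sub, Matrix.det_neg,
        ho.neg_one_pow] at this
      exact (mul_eq_zero.1 (by linear_combination -this)).resolve_left h2)
  rcases hsq g.val (by rw [sub_eq_zero] at h1; nth_rw 2 [h1]; exact g.mul_inv)
    (hH.eq_zero_or fun h hh => by rw [sub_mul, mul_sub, hc h hh]; simp)
    (hH.eq_zero_or fun h hh => by rw [add_mul, mul_add, hc h hh]; simp) with h | h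
  · exact ⟨1, by simp [h]⟩
  · exact ⟨-1, by simp [h]⟩

theorem perp_im_idem (hS : S.Nondeg) {E : Matrix ι ι F} (hE : E * E = E) (ha : adj S E = 1 - E) :
    S.perp (im E) = im E := by
  ext x
  rw [mem_im_idem hE, PQ.mem_perp]
  constructor
  · intro h
    rw [eq_comm, ← sub_eq_zero]
    refine hS _ fun u => ?_
    have := h _ (mulVec_mem_im E u)
    rwa [B_adj' hS, ha, Matrix.sub_mulVec, Matrix.one_mulVec] at this
  · rintro h _ ⟨u, rfl⟩
    rw [Matrix.toLin'_apply, B_adj' hS, ha, Matrix.sub_mulVec, Matrix.one_mulVec, h]; simp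

end general

/-- a Lagrangian idempotent -/
theorem exists_lagrangian {G : Matrix κ κ F} (h : Gᵀ = -G) (hdiag : ∀ i, G i i = 0) (hd : G.det ≠ 0) :
    ∃ e : Matrix κ κ F, e * e = e ∧ adjG (RingHom.id F) G e = 1 - e := by
  have hf := isSymplecticForm_ofG h hdiag hd
  have hS := sympPQ_nondeg hf
  set S := sympPQ hf
  obtain ⟨U, hU, hmax⟩ := (wellFounded_gt (α := Submodule F (κ → F))).has_min {U | S.TS U} ⟨⊥, S.ts_bot⟩
  have hp : S.perp U = U := le_antisymm (fun x hx => by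
    by_contra hx'
    refine hmax (U ⊔ F ∙ x) (hU.sup (S.symp_sing x).ts_span ((Submodule.span_singleton_le_iff_mem _ _).2 hx)) ?_
    exact lt_of_le_of_ne le_sup_left fun h0 => hx' (h0 ▸ Submodule.mem_sup_right (Submodule.mem_span_singleton_self x)))
    hU.le_perp
  obtain ⟨U', hU', hc⟩ := hU.exists_dual hS
  rw [hp] at hc
  have he : ∀ u, LinearMap.toMatrix' (U.subtype ∘ₗ U.projectionOnto U' hc.symm) *ᵥ u = U.projection U' hc.symm u :=
    fun u => LinearMap.toMatrix'_mulVec _ u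
  refine ⟨LinearMap.toMatrix' (U.subtype ∘ₗ U.projectionOnto U' hc.symm), mat_ext fun v => ?_, ?_⟩
  · rw [← Matrix.mulVec_mulVec, he, he]
    exact Submodule.projection_apply_of_mem_left _ (Submodule.projection_apply_mem _ _)
  · rw [← gram_ofG (RingHom.id F) G]
    refine adj_unique hS fun u v => ?_
    obtain ⟨a, ha, a', ha', rfl⟩ := Submodule.mem_sup.1 (hc.symm.sup_eq_top.ge (Submodule.mem_top (x := u)))
    obtain ⟨b, hb, b', hb', rfl⟩ := Submodule.mem_sup.1 (hc.symm.sup_eq_top.ge (Submodule.mem_top (x := v)))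
    rw [Matrix.sub_mulVec, Matrix.one_mulVec, he, he]
    simp [Submodule.projection_apply_of_mem_left _ ha, Submodule.projection_apply_of_mem_right _ ha',
      Submodule.projection_apply_of_mem_left _ hb, Submodule.projection_apply_of_mem_right _ hb',
      hU.2 a ha b hb, hU'.2 a' ha' b' hb']

variable {S : PQ (FP.orth F) (ι → F)} {H : Subgroup (GL ι F)}

theorem polar_eq_B (S : PQ (FP.orth F) (ι → F)) : QuadraticMap.polar S.Q = S.B := funext₂ S.orth_polar

theorem iso_le_IsoB : isometryGroup F S.Q ≤ IsoB S := fun g hg u v => by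
  change S.B (g.val *ᵥ u) (g.val *ᵥ v) = _
  simp only [← S.orth_polar, QuadraticMap.polar, ← Matrix.mulVec_add, mem_isometryGroup'.1 hg]

theorem qFix_self (hI : H ≤ isometryGroup F S.Q) : QFix S H S.Q :=
  ⟨S.orth_Q_smul, S.orth_polar, fun _ hg => mem_isometryGroup'.1 (hI hg)⟩

theorem Q_eq_zero_of_B (h2 : (2 : F) ≠ 0) {v : ι → F} (h : S.B v v = 0) : S.Q v = 0 :=
  (mul_eq_zero.1 ((S.orth_B_self v).symm.trans h)).resolve_left h2

theorem orth_alt (h2 : (2 : F) = 0) (v : ι → F) : S.B v v = 0 := by rw [S.orth_B_self, h2, zero_mul]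

theorem even_of_char_two (h2 : (2 : F) = 0) (hS : S.Nondeg) : Even (Fintype.card ι) :=
  even_card_of_symplectic (isSymplecticForm_polar h2 ((qFix_self (S := S) le_rfl).nondeg hS))

theorem plus_of_idem (hS : S.Nondeg) {E : Matrix ι ι F} (hE : E * E = E) (ha : adj S E = 1 - E)
    (hQ : (2 : F) = 0 → ∀ u, S.Q (E *ᵥ u) = 0) : Geo.IsPlusTypeOn S.Q ⊤ := by
  refine ⟨im E, le_top, ?_, ?_⟩
  · rintro _ ⟨u, rfl⟩
    by_cases h2 : (2 : F) = 0
    · exact hQ h2 u
    · exact Q_eq_zero_of_B h2 (((perp_im_idem hS hE ha).ge ⟨u, rfl⟩) _ ⟨u, rfl⟩)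
  · have := hS.finrank_perp (im E)
    rw [perp_im_idem hS hE ha] at this
    rw [finrank_top]; omega

theorem ts_or_point (hI : H ≤ isometryGroup F S.Q) {W : Submodule F (ι → F)} (h0 : W ≠ ⊥)
    (h : ∀ h ∈ H, ∀ v ∈ W, (h : Matrix ι ι F) *ᵥ v ∈ W)
    (hmin : ∀ U ≤ W, (∀ h ∈ H, ∀ v ∈ U, (h : Matrix ι ι F) *ᵥ v ∈ U) → U = ⊥ ∨ U = W)
    (hti : Geo.IsTotallySingularFor S.B W) :
    Geo.IsTotallySingularQuad S.Q W ∨ ((2 : F) = 0 ∧ ∃ v, S.Q v ≠ 0 ∧ W = F ∙ v) := by
  let W₀ : Submodule F (ι → F) :=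
    { carrier := {w | w ∈ W ∧ S.Q w = 0}
      add_mem' := fun {a b} ha hb => ⟨add_mem ha.1 hb.1, by rw [S.orth_Q_add, ha.2, hb.2, hti a ha.1 b hb.1]; simp⟩
      zero_mem' := ⟨zero_mem _, S.orth_Q_zero⟩
      smul_mem' := fun c v hv => ⟨W.smul_mem c hv.1, by rw [S.orth_Q_smul, hv.2, mul_zero]⟩ }
  rcases hmin W₀ (fun _ hw => hw.1) (fun g hg v hv => ⟨h g hg v hv.1, (mem_isometryGroup'.1 (hI hg) v).trans hv.2⟩)
    with h1 | h1
  swap
  · exact Or.inl fun w hw => (h1.ge hw).2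
  obtain ⟨v, hv, hv0⟩ := Submodule.exists_mem_ne_zero_of_ne_bot h0
  have hQ : S.Q v ≠ 0 := fun h2 => hv0 (h1.le ⟨hv, h2⟩)
  have h2 : (2 : F) = 0 := by
    by_contra h2
    exact hQ (Q_eq_zero_of_B h2 (hti v hv v hv))
  refine Or.inr ⟨h2, v, hQ, le_antisymm (fun w hw => ?_) ((Submodule.span_singleton_le_iff_mem _ _).2 hv)⟩
  have hc : ringChar F = 2 := CharP.ringChar_of_prime_eq_zero Nat.prime_two (by simpa using h2)
  obtain ⟨a, ha⟩ := FiniteField.isSquare_of_char_two hc (S.Q w / S.Q v)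
  have : w - a • v = 0 := h1.le ⟨sub_mem hw (W.smul_mem a hv), by
    rw [S.orth_Q_sub, hti _ hw _ (W.smul_mem a hv), S.orth_Q_smul, sq, ← ha, div_mul_cancel₀ _ hQ]
    linear_combination S.Q w * h2⟩
  exact Submodule.mem_span_singleton.2 ⟨a, (sub_eq_zero.1 this).symm⟩

theorem IdemFam.orthogonal (hS : S.Nondeg) (hH : Irr H) (hI : H ≤ isometryGroup F S.Q) {t : ℕ}
    {e : Fin t → Matrix ι ι F} (h : IdemFam H e) (ha : ∀ i, adj S (e i) = e i) :
    ∃ m, Geo.IsOrthogonalMDecomposition S.Q m fun i => im (e i) := by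
  obtain ⟨m, hm⟩ := h.nondeg hS hH ha
  refine ⟨m, polar_eq_B S ▸ hm, fun i j => ?_⟩
  obtain ⟨g, hg, h'⟩ := h.exists_map hH i j
  exact ⟨(glEquiv g).ofSubmodules _ _ (by rw [glEquiv_coe]; exact h'), fun w => mem_isometryGroup'.1 (hI hg) w⟩

theorem two_ne_zero_of_lines {t : ℕ} {D : Fin t → Submodule F (ι → F)} (hD : Geo.IsOrthogonalMDecomposition S.Q 1 D)
    (i : Fin t) : ∃ v ∈ D i, S.B v v ≠ 0 := by
  have h1 := hD.decomp.decomp.finrank_eq i
  obtain ⟨v, hv, hv0⟩ := Submodule.exists_mem_ne_zero_of_ne_bot (p := D i) (by intro h; rw [h] at h1; simp at h1)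
  obtain ⟨x, hx, hx'⟩ := (hD.decomp.nondegenerate i v hv hv0).1
  rw [eq_span_singleton_of_mem_of_finrank_eq_one h1 hv hv0] at hx
  obtain ⟨c, rfl⟩ := Submodule.mem_span_singleton.1 hx
  rw [S.orth_polar, S.B_smul_left] at hx'
  exact ⟨v, hv, right_ne_zero_of_mul hx'⟩

/-- an orthogonal frame is defined over the prime field -/
theorem subCore_of_lines (hI : H ≤ isometryGroup F S.Q) {t : ℕ} {D : Fin t → Submodule F (ι → F)}
    (hD : Geo.IsOrthogonalMDecomposition S.Q 1 D) (hH : H ≤ Geo.decompositionStabilizer D) {F₁ : Subfield F} {r : ℕ}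
    (hr : r.Prime) (hc : Fintype.card F = Nat.card F₁ ^ r) : ∃ P' G' ζ, SubCore S H F₁ r P' G' ζ := by
  have ht := hD.decomp.decomp.two_le
  obtain ⟨v₀, hv₀, ha⟩ := two_ne_zero_of_lines hD ⟨0, by omega⟩
  choose e he using hD.isometric ⟨0, by omega⟩
  have hB : ∀ i, S.B (e i ⟨v₀, hv₀⟩) (e i ⟨v₀, hv₀⟩) = S.B v₀ v₀ := fun i => by
    rw [S.orth_B_self, S.orth_B_self, he]
  have hsp : ∀ i, D i = F ∙ (e i ⟨v₀, hv₀⟩).val := fun i =>
    eq_span_singleton_of_mem_of_finrank_eq_one (hD.decomp.decomp.finrank_eq i) (Subtype.prop _) fun h0 => ha (by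
      rw [← hB i, h0, S.B_zero_left])
  have horth : ∀ i j, i ≠ j → S.B (e i ⟨v₀, hv₀⟩) (e j ⟨v₀, hv₀⟩) = 0 := fun i j hij =>
    S.orth_polar _ _ ▸ hD.decomp.orthogonal i j hij _ (Subtype.prop _) _ (Subtype.prop _)
  obtain ⟨b, hb⟩ := H7.exists_basis_of_orthogonal S (fun i => (e i ⟨v₀, hv₀⟩).val) (fun i => (hB i).symm ▸ ha) horth
    fun x => (hD.decomp.decomp.iSup_eq_top.ge.trans (iSup_le fun i => by
      rw [hsp]; exact Submodule.span_mono (by simp))) trivial
  simp only [← hb] at hB hsp horth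
  obtain ⟨G, hG⟩ := exists_hasGram S b.equivFun.symm
  have hs : ∀ i, b.equivFun.symm (Pi.single i 1) = b i := fun i => by simp [Pi.single_apply]
  have hG' : ∀ i j, G i j = S.B (b i) (b j) := fun i j => by rw [← ofG_single _ G, ← hG, hs, hs]
  obtain ⟨P', G', h⟩ := subCore_of_frame (H := H) hG hr hc (inv_ne_zero ha) (fun i j => by
    rw [Matrix.smul_apply, hG']
    by_cases hij : i = j
    · rw [hij, hB, smul_eq_mul, inv_mul_cancel₀ ha]; exact one_mem _
    · rw [horth i j hij, smul_zero]; exact zero_mem _) fun g hg j i => by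
      obtain ⟨σ, hσ⟩ := hH hg
      obtain ⟨c, hc⟩ : ∃ c : F, c • b (σ i) = g.val *ᵥ b i := by
        rw [← Submodule.mem_span_singleton, ← hsp, ← hσ, hsp]
        exact ⟨_, Submodule.mem_span_singleton_self _, rfl⟩
      have h1 := mem_IsoB.1 (iso_le_IsoB (hI hg)) (b i) (b i)
      rw [← hc, S.B_smul_left, S.B_smul_right, hB, hB, ← mul_assoc] at h1
      have h3 : c ∈ F₁ := by
        rcases mul_self_eq_one_iff.1 ((mul_left_eq_self₀.1 h1).resolve_right ha) with rfl | rfl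
        exacts [one_mem _, neg_mem (one_mem _)]
      have h4 : tr b.equivFun.symm g.val j i = (tr b.equivFun.symm g.val *ᵥ Pi.single i 1) j := by simp
      rw [h4, tr_mulVec', hs, ← hc]
      by_cases hj : σ i = j
      · simpa [hj] using h3
      · simp [hj]
  exact ⟨P', G', _, h⟩

theorem SubCore.quad (hS : S.Nondeg) (hn : 2 ≤ Fintype.card ι) (hH : Irr H) (hI : H ≤ isometryGroup F S.Q)
    {F₁ : Subfield F} {r : ℕ} {P' : GL ι F} {G : Matrix ι ι F} {ζ : F} (h : SubCore S H F₁ r P' G ζ) :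
    Geo.IsQuadFormRationalStructure (fun v => ζ * S.Q v) F₁ P' := by
  intro u hu
  by_cases h2 : (2 : F) = 0
  swap
  · have := h.rational u u hu hu
    rw [S.orth_B_self] at this
    convert div_mem this (natCast_mem F₁ 2) using 1
    simp only [Nat.cast_ofNat]; field_simp
  have : Nonempty ι := Fintype.card_pos_iff.1 (by omega)
  have := Fintype.ofFinite F₁
  let τ := (FiniteField.frobeniusAlgEquivOfAlgebraic F₁ F).toRingEquiv
  have hτ : ∀ x, x ∈ F₁ ↔ τ x = x := fun x => by rw [mem_subfield_iff, Nat.card_eq_fintype_card]; rfl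
  have hτ' : ∀ x ∈ F₁, τ.symm x = x := fun x hx => by rw [RingEquiv.symm_apply_eq, (hτ x).1 hx]
  have hζ := h.ne
  have hB : ∀ x y, ζ * S.B (P'.val *ᵥ x) (P'.val *ᵥ y) = ofG (RingHom.id F) (ζ • G) x y := fun x y => by
    rw [ofG_smul]; exact congrArg _ (h.gram x y)
  have key : QFix S H fun v => ζ⁻¹ * τ (ζ * S.Q (P'.val *ᵥ (τ.symm ∘ ((P'⁻¹).val *ᵥ v)))) := by
    refine ⟨fun c v => ?_, fun x y => ?_, fun g hg v => ?_⟩
    · have : τ.symm ∘ ((P'⁻¹).val *ᵥ (c • v)) = τ.symm c • (τ.symm ∘ ((P'⁻¹).val *ᵥ v)) := by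
        ext i; simp [Matrix.mulVec_smul]
      rw [this, Matrix.mulVec_smul, S.orth_Q_smul]; simp; ring
    · have : τ.symm ∘ ((P'⁻¹).val *ᵥ (x + y)) = τ.symm ∘ ((P'⁻¹).val *ᵥ x) + τ.symm ∘ ((P'⁻¹).val *ᵥ y) := by
        ext i; simp [Matrix.mulVec_add]
      simp only [QuadraticMap.polar]
      rw [this, Matrix.mulVec_add, S.orth_Q_add, mul_add, mul_add, hB, map_add, map_add]
      conv_rhs => rw [← mulVec_inv_mulVec P' x, ← mulVec_inv_mulVec P' y, ← inv_mul_cancel_left₀ hζ (S.B _ _), hB]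
      have h3 : ∀ a b, τ ((ζ • G) a b) = (ζ • G) a b := fun a b => (hτ _).1 (h.ovr a b)
      simp only [ofG_eq_sum, map_sum, map_mul, h3, Function.comp_apply, RingEquiv.apply_symm_apply, RingHom.id_apply]
      ring
    · obtain ⟨c, hc⟩ := (mem_subfieldSubgroup_iff _ _ _).1 (h.le hg)
      have h4 := h.gram.iso.1 (iso_le_IsoB (hI hg))
      rw [tr_glEquiv, show ⇑(FP.orth F).σ = id from rfl, Matrix.map_id] at h4
      have h5 : (c : F) ∈ F₁ := by
        obtain ⟨i, hi⟩ := Function.ne_iff.1 (ne_zero_of_det (h.gram.det hS))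
        obtain ⟨j, hj⟩ := Function.ne_iff.1 hi
        have h6 := (hc.transpose.mul h.ovr).mul hc i j
        have h7 : ((c : F) • cj P'⁻¹ g.val)ᵀ * (ζ • G) * ((c : F) • cj P'⁻¹ g.val) = ((c : F) * c) • ζ • G := by
          conv_rhs => rw [← h4]
          simp [smul_smul, mul_comm, mul_left_comm]
        rw [h7, Matrix.smul_apply, smul_eq_mul] at h6
        have h8 := (hτ _).1 ((mul_div_cancel_right₀ ((c : F) * c) (smul_ne_zero hζ hj)) ▸ div_mem h6 (h.ovr i j))
        rw [hτ, ← sub_eq_zero, ← sq_eq_zero_iff]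
        rw [map_mul] at h8
        linear_combination h8 + ((c : F) * c - τ c * c) * h2
      have h6 : Over F₁ (cj P'⁻¹ g.val) := by simpa [smul_smul] using hc.smul (inv_mem h5)
      have h7 : (cj P'⁻¹ g.val).map τ.symm = cj P'⁻¹ g.val := by ext i j; exact hτ' _ (h6 i j)
      have : τ.symm ∘ ((P'⁻¹).val *ᵥ (g.val *ᵥ v)) = cj P'⁻¹ g.val *ᵥ (τ.symm ∘ ((P'⁻¹).val *ᵥ v)) := by
        rw [← cj_mulVec]
        conv_rhs => rw [← h7]
        exact comp_mulVec (τ.symm : F →+* F) _ _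
      rw [this, ← mulVec_inv_mulVec P'⁻¹ (τ.symm ∘ _), cj_mulVec, mulVec_inv_mulVec, mem_isometryGroup'.1 (hI hg)]
      simp
  have h3 := (qFix_self hI).unique h2 hn hH key (P'.val *ᵥ u)
  rw [inv_mulVec_mulVec, show τ.symm ∘ u = u from funext fun i => hτ' _ (hu i), eq_inv_mul_iff_mul_eq₀ hζ] at h3
  exact (hτ _).2 h3.symm

theorem ts_of_pair (hS : S.Nondeg) (hn : 2 ≤ Fintype.card ι) (hH : Irr H) (hI : H ≤ isometryGroup F S.Q)
    {e : Matrix ι ι F} (he : IdemFam H ![e, 1 - e]) (ha : adj S e = 1 - e) (i : Fin 2) :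
    Geo.IsTotallySingularQuad S.Q (im (![e, 1 - e] i)) := by
  intro w hw
  by_cases h2 : (2 : F) = 0
  swap
  · exact Q_eq_zero_of_B h2 (ti_of_adj hS (he.idem 0) ha i w hw w hw)
  rw [(qFix_self hI).unique h2 hn hH (qFix_of_pair rfl h2 hS (hI.trans iso_le_IsoB) (orth_alt h2) he ha)]
  have h0 : e * e = e := he.idem 0
  obtain ⟨u, rfl⟩ := hw
  fin_cases i
  · simp [h0, orth_alt h2]
  · simp [Matrix.mulVec_sub, h0]

theorem sim_of_unitary (hS : S.Nondeg) (hn : 2 ≤ Fintype.card ι) (hH : Irr H) (hI : H ≤ isometryGroup F S.Q)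
    {K : Subalgebra F (Matrix ι ι F)} (hc : ∀ x ∈ K, ∀ y ∈ K, x * y = y * x) (hn' : Norms H K)
    (ha : AdjC S (K : Set (Matrix ι ι F))) (h1 : ∃ k ∈ K, adj S k ≠ k) (h3 : ∀ k ∈ K, adj S k = k → IsSc k) :
    ∀ k ∈ K, ∃ c : F, ∀ v, S.Q (k *ᵥ v) = c * S.Q v := by
  intro k hk
  obtain ⟨c, hc'⟩ := h3 _ (mul_mem (ha k hk) hk) (by rw [adj_mul hS, adj_adj hS])
  have hB : ∀ u v, S.B (k *ᵥ u) (k *ᵥ v) = c * S.B u v := fun u v => by
    rw [B_adj hS, Matrix.mulVec_mulVec, hc']; simp [Matrix.smul_mulVec]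
  refine ⟨c, fun v => ?_⟩
  by_cases h2 : (2 : F) = 0
  · obtain ⟨ω, hω, h4, h5⟩ := exists_omega rfl h2 hS (hI.trans iso_le_IsoB) hn' ha h1 h3
    have := (qFix_self hI).unique h2 hn hH (qFix_of_omega rfl h2 hS (hI.trans iso_le_IsoB) (orth_alt h2) h4 h5)
    rw [this, this, Matrix.mulVec_mulVec, hc ω hω k hk, ← Matrix.mulVec_mulVec, hB]
  · apply mul_left_cancel₀ h2
    rw [← S.orth_B_self, hB, S.orth_B_self]; ring

theorem ES.plus (hS : S.Nondeg) (hn : 2 ≤ Fintype.card ι) (h2 : (2 : F) ≠ 0) (hc : NoComm S H)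
    {R : Subgroup (GL ι F)} {m : ℕ} (h : ES H R 2 m) (hI : R ≤ IsoB S) : Geo.IsPlusTypeOn S.Q ⊤ := by
  have : Nonempty ι := Fintype.card_pos_iff.1 (by omega)
  have hsc : ∀ x ∈ R, IsSc x.val → x.val = 1 ∨ x.val = -1 := fun x hx hx' => by
    obtain ⟨c, rfl⟩ := mem_scalars_iff'.1 ((mem_scalars_iff x).2 hx')
    rcases mul_self_eq_one_iff.1 ((sc_mem_IsoB hS).1 (hI hx)) with h | h <;> simp [h]
  have hadj : ∀ x ∈ R, x.val * x.val = -1 → adj S x.val = -x.val := fun x hx hx' => by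
    rw [adj_iso hS (hI hx)]; exact Units.inv_eq_of_mul_eq_one_right (by rw [mul_neg, hx', neg_neg])
  by_cases h0 : ∀ x ∈ R, x.val * x.val = -1 → ∀ y ∈ R, y.val * y.val = -1 → x.val * y.val = y.val * x.val
  · exfalso
    have h1 := hc.of_set hS (T := {X | ∃ x ∈ R, x.val * x.val = -1 ∧ X = x.val}) (by
      rintro g hg _ ⟨x, hx, hx', rfl⟩
      exact Algebra.subset_adjoin ⟨_, h.norms g hg x hx, by rw [← cj_coe, ← map_mul, hx', map_neg, map_one],
        cj_coe _ _⟩) (by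
      rintro _ ⟨x, hx, hx', rfl⟩ _ ⟨y, hy, hy', rfl⟩; exact h0 x hx hx' y hy hy') (by
      rintro _ ⟨x, hx, hx', rfl⟩
      rw [hadj x hx hx']; exact neg_mem (Algebra.subset_adjoin ⟨x, hx, hx', rfl⟩))
    have h3 : ∀ x ∈ R, x * x = 1 := fun x hx => by
      rcases hsc _ (mul_mem hx hx) ((mem_scalars_iff _).1 (sq x ▸ h.pow x hx)) with h4 | h4
      · exact Units.ext h4
      · rcases hsc x hx (h1 _ ⟨x, hx, h4, rfl⟩) with h5 | h5 <;> exact Units.ext (by simp [h5])
    obtain ⟨ζ, hζ, -, x, hx, y, hy, hxy⟩ := h.root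
    rw [← inv_eq_of_mul_eq_one_right (h3 _ (mul_mem hx hy)), mul_inv_rev, inv_eq_of_mul_eq_one_right (h3 x hx),
      inv_eq_of_mul_eq_one_right (h3 y hy), right_eq_mul] at hxy
    exact hζ (sc_injective (ι := ι) (by rw [hxy, map_one]))
  push Not at h0
  obtain ⟨x, hx, hx', y, hy, hy', hxy⟩ := h0
  obtain ⟨c, hc1, hc2⟩ := h.comm x hx y hy
  obtain ⟨rfl, -⟩ := two_ne_zero_of_root (by rintro rfl; exact hxy (by simpa using congrArg Units.val hc2)) hc1
  have h3 : x.val * y.val = -(y.val * x.val) := by simpa using congrArg Units.val hc2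
  obtain ⟨a, b, hab⟩ := exists_binary h2 one_ne_zero one_ne_zero (-1)
  have h4 : (a • x.val + b • y.val) * (a • x.val + b • y.val) = 1 := by
    simp only [add_mul, mul_add, Matrix.smul_mul, Matrix.mul_smul, hx', hy', h3, smul_smul]
    conv_rhs => rw [← one_smul F (1 : Matrix ι ι F), show (1 : F) = -(a * a + b * b) by linear_combination hab]
    module
  refine plus_of_idem hS (E := (2 : F)⁻¹ • (1 + (a • x.val + b • y.val))) ?_ ?_ fun h => absurd h h2
  · generalize a • x.val + b • y.val = w at h4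
    simp only [add_mul, mul_add, Matrix.smul_mul, Matrix.mul_smul, h4, mul_one, one_mul]
    match_scalars <;> field_simp <;> ring
  · simp only [adj_smul hS, adj_add hS, adj_one hS, hadj x hx hx', hadj y hy hy', FP.orth_σ]
    match_scalars <;> field_simp <;> ring

end Cfsg.Agent.Asch
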